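import Cfsg.Agent.E8A.Min
import Cfsg.Agent.S2653
import Cfsg.Agent.H67.FeitTits

set_option autoImplicit false

namespace Cfsg.Agent.E8A

open Module

variable {H : Type*} [Group H] {k V : Type*} [Field k] [AddCommGroup V] [Module k V]

theorem act_triv [Finite H] (M : Mn H) {R R₀ : Subgroup H} [R.Normal] [R₀.Normal] {r : ℕ}
    (hr : r.Prime) (h0 : R₀ ≤ R) (hK : ∀ g ∈ M.φ.ker, ∀ x ∈ R, g * x * g⁻¹ * x⁻¹ ∈ R₀)
    (hc : ∀ x ∈ R, ∀ y ∈ R, x * y * x⁻¹ * y⁻¹ ∈ R₀) (hp : ∀ x ∈ R, x ^ r ∈ R₀)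
    (hlt : R₀.relIndex R < r ^ 16) (h : H) : ∀ x ∈ R, h * x * h⁻¹ * x⁻¹ ∈ R₀ := by
  classical
  haveI : Fact r.Prime := ⟨hr⟩
  have _ := h0
  let q := QuotientGroup.mk' R₀
  have hq : ∀ x, q x = 1 ↔ x ∈ R₀ := fun x => QuotientGroup.eq_one_iff x
  let A : Subgroup (H ⧸ R₀) := R.map q
  haveI : A.Normal := Subgroup.Normal.map inferInstance q (QuotientGroup.mk'_surjective R₀)
  letI : CommGroup A :=
    { (inferInstance : Group A) with
      mul_comm := by
        rintro ⟨_, x, hx, rfl⟩ ⟨_, y, hy, rfl⟩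
        apply Subtype.ext
        have := (hq _).2 (hc x hx y hy)
        simp only [map_mul, map_inv] at this
        exact mul_inv_eq_iff_eq_mul.1 (mul_inv_eq_one.1 this) }
  obtain ⟨n, τ, hτ, hn⟩ := H67.exists_aut_rep (Q := A) (l := r) (by
    rintro ⟨_, x, hx, rfl⟩
    apply Subtype.ext
    have := (hq _).2 (hp x hx)
    rw [map_pow] at this
    exact this)
  have hcard : R₀.relIndex R = r ^ n := by
    rw [← hn, ← Subgroup.relIndex_ker, QuotientGroup.ker_mk']
  let α : H →* MulAut A := MulAut.conjNormal.comp q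
  let ψ : H →* GL (Fin n) (ZMod r) := (τ.comp α).toHomUnits
  have hker : ∀ g, g ∈ ψ.ker ↔ ∀ x ∈ R, g * x * g⁻¹ * x⁻¹ ∈ R₀ := fun g => by
    rw [MonoidHom.mem_ker, Units.ext_iff]
    change τ (α g) = 1 ↔ _
    rw [map_eq_one_iff τ hτ]
    constructor
    · intro e x hx
      have := congrArg (fun β : MulAut A => (β ⟨q x, x, hx, rfl⟩ : H ⧸ R₀)) e
      simp only [α, MonoidHom.comp_apply, MulAut.conjNormal_apply, MulAut.one_apply] at this
      rw [← hq, map_mul, map_mul, map_mul, map_inv, map_inv, this, mul_inv_cancel]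
    · intro e
      ext ⟨_, x, hx, rfl⟩
      have := (hq _).2 (e x hx)
      simp only [map_mul, map_inv] at this
      simp only [α, MonoidHom.comp_apply, MulAut.conjNormal_apply, MulAut.one_apply]
      exact mul_inv_eq_one.1 this
  by_cases hle : ψ.ker ≤ M.φ.ker
  · have he : ψ.ker = M.φ.ker := le_antisymm hle fun g hg => (hker g).2 (hK g hg)
    have := S2653.result r n 18 ψ.range ⊥ ⟨QuotientGroup.quotientBot.trans
      ((QuotientGroup.quotientKerEquivRange ψ).symm.trans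
        ((QuotientGroup.quotientMulEquivOfEq he).trans
          (QuotientGroup.quotientKerEquivOfSurjective M.φ M.surj)))⟩ (by norm_num)
    rw [hcard, Nat.pow_lt_pow_iff_right hr.one_lt] at hlt
    split_ifs at this <;> omega
  · exact (hker h).1 ((M.top hle).ge (Subgroup.mem_top h))

end Cfsg.Agent.E8A
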