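import Cfsg.Agent.E8A.Defs

set_option autoImplicit false

namespace Cfsg.Agent.E8A

open Module

namespace Alt

open Equiv Equiv.Perm

theorem prod_cube {M : Type*} [Monoid M] (l : List M) (hc : l.Pairwise Commute)
    (h3 : ∀ a ∈ l, a ^ 3 = 1) : l.prod ^ 3 = 1 := by
  induction l with
  | nil => simp
  | cons a l ih =>
    rw [List.pairwise_cons] at hc
    rw [List.prod_cons, (Commute.list_prod_right l a hc.1).mul_pow, h3 a List.mem_cons_self,
      ih hc.2 (fun x hx => h3 x (List.mem_cons_of_mem _ hx)), one_mul]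

/-- the block of a point -/
def blk (p : Fin 18) : Fin 6 := ⟨p / 3, by omega⟩

theorem cyc_fix : ∀ (i : Fin 6) (p : Fin 18), blk p ≠ i → (cyc i).1 p = p := by decide +kernel

theorem cyc_cube : ∀ i : Fin 6, (cyc i).1 ^ 3 = 1 := by decide +kernel

theorem cyc_supp : ∀ (i : Fin 6) (j : ZMod 3),
    ((cyc i).1 ^ j.val).support.card = 3 * if j ≠ 0 then 1 else 0 := by decide +kernel

theorem disj (x : E6) : (List.ofFn fun i => (cyc i).1 ^ (x i).val).Pairwise Perm.Disjoint :=
  List.pairwise_ofFn.2 fun i j hij => Disjoint.pow_disjoint_pow (fun p => by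
    by_cases h : blk p = i
    · exact Or.inr (cyc_fix j p (h ▸ hij.ne))
    · exact Or.inl (cyc_fix i p h)) _ _

theorem coe_pw (x : E6) : (pw cyc x).1 = (List.ofFn fun i => (cyc i).1 ^ (x i).val).prod :=
  map_pw (alternatingGroup (Fin 18)).subtype cyc x

theorem supp (x : E6) : (pw cyc x).1.support.card = 3 * wt x := by
  rw [coe_pw, card_support_prod_list_of_pairwise_disjoint (disj x), List.map_ofFn, List.sum_ofFn, wt,
    Finset.card_filter, Finset.mul_sum]
  exact Finset.sum_congr rfl fun i _ => cyc_supp i _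

theorem cty (x : E6) : (pw cyc x).1.cycleType = Multiset.replicate (wt x) 3 := by
  haveI := Fact.mk Nat.prime_three
  have a1 : (pw cyc x).1 ^ 3 = 1 := by
    rw [coe_pw]
    refine prod_cube _ ((disj x).imp Disjoint.commute) fun a ha => ?_
    obtain ⟨i, rfl⟩ := List.mem_ofFn.1 ha
    rw [← pow_mul, mul_comm, pow_mul, cyc_cube, one_pow]
  have a2 := cycleType_of_pow_prime_eq_one a1
  have a3 := sum_cycleType (pw cyc x).1
  rw [a2, supp, Multiset.sum_replicate, smul_eq_mul] at a3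
  rw [a2, show (pw cyc x).1.cycleType.card = wt x by omega]

/-- the 3-cycles through `0`, `1` -/
def ta (i : Fin 16) : Perm (Fin 18) := tc 0 1 ⟨i + 2, by omega⟩

theorem ta_supp : ∀ i, (ta i).support.card = 3 := by decide +kernel

theorem cyc0_supp : (cyc 0).1.support.card = 3 := by decide +kernel

theorem ta_rel : ∀ i j, i ≠ j → (∀ p, ta i (ta j (ta i (ta j p))) = p) ∧ ta i (ta j 0) ≠ ta j (ta i 0) := by
  decide +kernel

end Alt

open Alt Equiv Equiv.Perm

theorem pw_conj {x y : E6} (h : wt x = wt y) : IsConj (pw cyc x) (pw cyc y) := by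
  obtain ⟨g, hg⟩ := isConj_iff.1 (isConj_iff_cycleType_eq.2 (by rw [cty x, cty y, h]) :
    IsConj (pw cyc x).1 (pw cyc y).1)
  rcases Int.units_eq_one_or (sign g) with e | e
  · exact isConj_iff.2 ⟨⟨g, mem_alternatingGroup.2 e⟩, Subtype.ext hg⟩
  have : ¬ Subgroup.centralizer {(pw cyc x).1} ≤ alternatingGroup (Fin 18) := fun hc => by
    obtain ⟨-, a1, a2⟩ := centralizer_le_alternating_iff.1 hc
    have a3 := a2 3
    rw [cty, Multiset.count_replicate_self] at a3
    rw [cty, Multiset.sum_replicate, smul_eq_mul, Fintype.card_fin] at a1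
    omega
  obtain ⟨z, hz, z1⟩ := SetLike.not_le_iff_exists.1 this
  have z2 := (Int.units_eq_one_or (sign z)).resolve_left fun e => z1 (mem_alternatingGroup.2 e)
  refine isConj_iff.2 ⟨⟨g * z, mem_alternatingGroup.2 (by rw [map_mul, e, z2]; simp)⟩, Subtype.ext ?_⟩
  change g * z * (pw cyc x).1 * (g * z)⁻¹ = _
  rw [← hg, mul_assoc g, Subgroup.mem_centralizer_singleton_iff.1 hz]
  group

theorem pw_ne {x : E6} (h : x ≠ 0) : pw cyc x ≠ 1 := fun e => by
  have := supp x
  rw [e, OneMemClass.coe_one, support_one, Finset.card_empty] at this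
  have a1 : wt x = 0 := by omega
  refine h (funext fun i => by_contra fun hi => ?_)
  exact Finset.card_ne_zero.2 ⟨i, Finset.mem_filter.2 ⟨Finset.mem_univ i, hi⟩⟩ a1

theorem gen (U : Subgroup A18) (h : ∀ τ : Finset (Fin 6), τ.card = 3 →
    ∀ y : A18, (∀ i ∈ τ, Commute y (cyc i)) → y ∈ U) : U = ⊤ := by
  have : Subgroup.closure {σ : Perm (Fin 18) | IsThreeCycle σ} ≤ U.map (Subgroup.subtype _) := by
    refine (Subgroup.closure_le _).2 fun y hy => ⟨⟨y, IsThreeCycle.mem_alternatingGroup hy⟩, ?_, rfl⟩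
    have a1 : (y.support.image blk).card ≤ 3 := Finset.card_image_le.trans (IsThreeCycle.card_support hy).le
    obtain ⟨τ, a2, a3⟩ := Finset.exists_subset_card_eq (s := (y.support.image blk)ᶜ) (n := 3)
      (by rw [Finset.card_compl, Fintype.card_fin]; omega)
    refine h τ a3 _ fun i hi => Subtype.ext (Disjoint.commute (f := y) (g := (cyc i).1) fun p => ?_).eq
    refine or_iff_not_imp_left.2 fun hp => cyc_fix i p fun e => Finset.mem_compl.1 (a2 hi) ?_
    exact Finset.mem_image.2 ⟨p, mem_support.2 hp, e⟩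
  rw [closure_three_cycles_eq_alternating] at this
  refine (Subgroup.eq_top_iff' U).2 fun g => ?_
  obtain ⟨u, hu, e⟩ := this g.2
  exact (Subtype.ext e : u = g) ▸ hu

theorem exists_a : ∃ a g : Fin 16 → A18, (∀ i, g i * cyc 0 * (g i)⁻¹ = a i) ∧
    ∀ i j, i ≠ j → (a i * a j) ^ 2 = 1 ∧ ¬ Commute (a i) (a j) := by
  have h3 : ∀ i, IsThreeCycle (ta i) := fun i => card_support_eq_three_iff.1 (ta_supp i)
  obtain ⟨a, ha⟩ : ∃ a : Fin 16 → A18, ∀ i, (a i).1 = ta i :=
    ⟨fun i => ⟨ta i, (h3 i).mem_alternatingGroup⟩, fun _ => rfl⟩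
  choose g hg using fun i => isConj_iff.1 (alternatingGroup.isThreeCycle_isConj (σ := cyc 0)
    (τ := a i) (by simp) (card_support_eq_three_iff.1 cyc0_supp) (ha i ▸ h3 i))
  refine ⟨a, g, hg, fun i j hij => ⟨Subtype.ext (Equiv.ext fun p => ?_), fun e => (ta_rel i j hij).2 ?_⟩⟩
  · rw [sq, Subgroup.coe_mul, Subgroup.coe_mul, ha, ha, mul_apply, mul_apply, mul_apply, OneMemClass.coe_one,
      one_apply]
    exact (ta_rel i j hij).1 p
  · rw [← ha, ← ha, ← mul_apply, ← mul_apply, ← Subgroup.coe_mul, ← Subgroup.coe_mul, e.eq]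

end Cfsg.Agent.E8A
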