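import Cfsg.Agent.E8A.Ind

set_option autoImplicit false

namespace Cfsg.Agent.E8A

open Module

variable {H : Type*} [Group H] {k V : Type*} [Field k] [AddCommGroup V] [Module k V]

namespace ClifE

open Finset

variable {R : Type*} [Ring R] [CharP R 2] {a : Fin 16 → R}

theorem anti (hr : ∀ i j, i ≠ j → a i * a j + a j * a i + a i + a j + 1 = 0) (A B : Finset (Fin 16)) :
    (∑ i ∈ A, a i) * (∑ i ∈ B, a i) + (∑ i ∈ B, a i) * (∑ i ∈ A, a i) =
      B.card * (∑ i ∈ A, a i) + A.card * (∑ i ∈ B, a i) + A.card * B.card + (A ∩ B).card := by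
  have h0 : ∀ i j, a i * a j + a j * a i = a i + a j + 1 + (if i = j then 1 else 0) := fun i j => by
    split_ifs with h
    · subst h
      rw [add_assoc, CharTwo.add_self_eq_zero, CharTwo.add_self_eq_zero, CharTwo.add_self_eq_zero, add_zero]
    · rw [add_zero, ← CharTwo.add_eq_zero, ← hr i j h]; abel
  have := sum_congr (rfl : A = A) fun i _ => sum_congr (rfl : B = B) fun j _ => h0 i j
  simp only [sum_add_distrib, ← mul_sum, ← sum_mul, sum_const, sum_ite_eq, nsmul_eq_mul, mul_one,
    sum_ite_mem] at this
  exact this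

theorem sq (hq : ∀ i, Qd (a i)) (hr : ∀ i j, i ≠ j → a i * a j + a j * a i + a i + a j + 1 = 0)
    (A : Finset (Fin 16)) :
    (∑ i ∈ A, a i) * (∑ i ∈ A, a i) = A.card * (∑ i ∈ A, a i) + ((A.card + 1).choose 2 : ℕ) := by
  induction A using Finset.induction_on with
  | empty => simp
  | insert i A hi ih =>
    have h1 := anti hr {i} A
    have h2 : a i * a i = a i + 1 := by rw [← CharTwo.add_eq_zero, ← add_assoc]; exact hq i
    rw [sum_singleton, card_singleton, singleton_inter_of_notMem hi, card_empty] at h1
    rw [sum_insert hi, card_insert_of_notMem hi, Nat.choose_succ_succ' (A.card + 1) 1, Nat.choose_one_right]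
    push_cast at h1 ⊢
    linear_combination (norm := noncomm_ring) h1 + h2 + ih

theorem ev {n : ℕ} (h : Even n) : (n : R) = 0 := by rw [CharTwo.natCast_eq_ite, if_pos h]

theorem od {n : ℕ} (h : ¬ Even n) : (n : R) = 1 := by rw [CharTwo.natCast_eq_ite, if_neg h]

theorem cm (hr : ∀ i j, i ≠ j → a i * a j + a j * a i + a i + a j + 1 = 0) {A B : Finset (Fin 16)}
    (h : Even A.card ∧ Even B.card ∧ Even (A ∩ B).card) : Commute (∑ i ∈ A, a i) (∑ i ∈ B, a i) := by
  have := anti hr A B
  rw [ev h.1, ev h.2.1, ev h.2.2] at this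
  exact CharTwo.add_eq_zero.1 (by simpa using this)

theorem odd_one (hr : ∀ i j, i ≠ j → a i * a j + a j * a i + a i + a j + 1 = 0) {A : Finset (Fin 16)}
    (h : Even A.card ∧ 15 ∉ A) : a 15 * (∑ i ∈ A, a i) = (∑ i ∈ A, a i) * (a 15 + 1) := by
  have := anti hr {15} A
  rw [ev h.1, sum_singleton, card_singleton, singleton_inter_of_notMem h.2] at this
  rw [mul_add, add_comm, ← sub_eq_iff_eq_add, CharTwo.sub_eq_add]
  simpa using this

def uA (i : Fin 7) : Finset (Fin 16) := {⟨2 * i + 1, by omega⟩, ⟨2 * i + 2, by omega⟩}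

def vA (i : Fin 7) : Finset (Fin 16) := univ.filter fun j => j.val < 2 * i + 2

theorem gens (hq : ∀ i, Qd (a i)) (hr : ∀ i j, i ≠ j → a i * a j + a j * a i + a i + a j + 1 = 0) :
    ∃ (U W : Fin 7 → R) (c : Fin 7 → ℕ) (e : R), (∀ i, U i * U i = 1) ∧ (∀ i, W i * W i = c i) ∧
      (∀ i, W i * U i = U i * W i + 1) ∧ (∀ i j, Commute (U i) (U j)) ∧ (∀ i j, Commute (W i) (W j)) ∧
      (∀ i j, i ≠ j → Commute (U i) (W j)) ∧ (∀ i, a 15 * U i = U i * (a 15 + 1)) ∧
      (∀ i, a 15 * W i = W i * (a 15 + 1)) ∧ (∀ i, Commute e (U i)) ∧ (∀ i, Commute e (W i)) ∧ e * e = 1 ∧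
      a 15 * e = e * (a 15 + 1) := by
  refine ⟨fun i => ∑ j ∈ uA i, a j, fun i => ∑ j ∈ vA i, a j, fun i => ((vA i).card + 1).choose 2,
    ∑ j, a j + 1, fun i => ?_, fun i => ?_, fun i => ?_, fun i j => cm hr (by revert i j; decide),
    fun i j => cm hr (by revert i j; decide), fun i j h => cm hr (by revert i j; decide),
    fun i => odd_one hr (by revert i; decide), fun i => odd_one hr (by revert i; decide),
    fun i => (cm hr (by revert i; decide)).add_left (Commute.one_left _),
    fun i => (cm hr (by revert i; decide)).add_left (Commute.one_left _), ?_, ?_⟩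
  · rw [sq hq hr, ev (n := (uA i).card) (by revert i; decide), od (by revert i; decide), zero_mul, zero_add]
  · rw [sq hq hr, ev (n := (vA i).card) (by revert i; decide), zero_mul, zero_add]
  · have := anti hr (vA i) (uA i)
    have h : Even (uA i).card ∧ Even (vA i).card ∧ ¬ Even (vA i ∩ uA i).card := by clear this; revert i; decide
    rw [ev h.1, ev h.2.1, od h.2.2] at this
    rw [add_comm, ← sub_eq_iff_eq_add, CharTwo.sub_eq_add]
    simpa using this
  · rw [add_mul, mul_add, mul_add, sq hq hr, ev (n := univ.card) (by decide), ev (by decide)]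
    simp [← add_assoc, CharTwo.add_self_eq_zero]
  · have := anti hr {15} univ
    rw [ev (n := univ.card) (by decide), sum_singleton, inter_univ, card_singleton] at this
    have h2 : (2 : R) = 0 := CharTwo.two_eq_zero
    push_cast at this
    linear_combination (norm := noncomm_ring) this - h2 * ((∑ j, a j) * a 15)

end ClifE

theorem clifE [IsAlgClosed k] [FiniteDimensional k V] [Nontrivial V] (h2 : (2 : k) = 0)
    (a : Fin 16 → End k V) (hq : ∀ i, Qd (a i))
    (hr : ∀ i j, i ≠ j → a i * a j + a j * a i + a i + a j + 1 = 0) : 256 ≤ finrank k V := by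
  have : CharP k 2 := CharTwo.of_one_ne_zero_of_two_eq_zero one_ne_zero h2
  have : CharP (End k V) 2 := charP_of_injective_algebraMap (algebraMap k (End k V)).injective 2
  have h2' : (2 : End k V) = 0 := CharTwo.two_eq_zero
  obtain ⟨U, W, c, e, uu, ww, wu, cu, cw, cuw, au, aw, eu, ew, ee, ae⟩ := ClifE.gens hq hr
  have root : ∀ n : ℕ, ∃ z : End k V, z * z = z + n ∧ ∀ x, Commute z x := fun n => by
    obtain ⟨z, hz⟩ := IsAlgClosed.exists_root (Polynomial.X ^ 2 - Polynomial.X - Polynomial.C (n : k)) (by
      have : (Polynomial.X ^ 2 - Polynomial.X - Polynomial.C (n : k) : Polynomial k).degree = 2 := by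
        compute_degree!
      rw [this]; decide)
    refine ⟨algebraMap k _ z, ?_, fun x => Algebra.commutes z x⟩
    rw [← map_mul, ← map_natCast (algebraMap k (End k V)), ← map_add]
    congr 1
    simp only [Polynomial.IsRoot, Polynomial.eval_sub, Polynomial.eval_pow, Polynomial.eval_X,
      Polynomial.eval_C] at hz
    linear_combination hz
  choose z zz zc using root
  have aq : a 15 * a 15 = a 15 + 1 := by rw [← CharTwo.add_eq_zero, ← add_assoc]; exact hq 15
  have two : ∀ {x y : End k V}, a 15 * x = x * (a 15 + 1) → a 15 * y = y * (a 15 + 1) →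
      Commute (a 15) (x * y) := fun {x y} hx hy => by
    change _ = _
    linear_combination (norm := noncomm_ring) hx * y + x * hy + h2' * (x * y)
  have c1 : ∀ i j, i ≠ j → Commute (U i) (U j * W j + z (c j)) := fun i j h =>
    ((cu i j).mul_right (cuw i j h)).add_right (zc _ _).symm
  have c2 : ∀ j, Commute e (U j * W j + z (c j)) := fun j => ((eu j).mul_right (ew j)).add_right (zc _ _).symm
  have c3 : ∀ j, Commute (a 15 + z 1) (U j * W j + z (c j)) := fun j =>
    ((two (au j) (aw j)).add_right (zc _ _).symm).add_left (zc _ _)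
  refine dbl (n := 8) (Fin.lastCases (a 15 + z 1) fun i => U i * W i + z (c i))
    (Fin.lastCases e fun i => U i * e) (Fin.lastCases e fun i => U i * e) (fun i => ?_) (fun i j => ?_)
    (fun i => ?_) (fun i => ?_) fun i j h => ?_
  · induction i using Fin.lastCases with
    | last =>
      simp only [Fin.lastCases_last]
      rw [add_mul, mul_add, mul_add, aq, zz, (zc 1 _).eq, Nat.cast_one]
      linear_combination (norm := noncomm_ring) h2' * (1 + a 15 * z 1)
    | cast i =>
      simp only [Fin.lastCases_castSucc]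
      have : U i * W i * (U i * W i) = c i + U i * W i := by
        rw [mul_assoc, ← mul_assoc (W i), wu, add_mul, mul_add, one_mul, mul_assoc, ww, ← mul_assoc, uu, one_mul]
      rw [add_mul, mul_add, mul_add, this, zz, (zc _ (U i * W i)).eq]
      linear_combination (norm := noncomm_ring) h2' * (c i + U i * W i * z (c i))
  · induction i using Fin.lastCases <;> induction j using Fin.lastCases <;>
      simp only [Fin.lastCases_last, Fin.lastCases_castSucc]
    · rfl
    · exact c3 _
    · exact (c3 _).symm
    · rename_i i j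
      by_cases h : i = j
      · rw [h]
      · exact ((c1 i j h).mul_left ((((cuw j i (Ne.symm h)).symm.mul_right (cw i j))).add_right
          (zc _ _).symm)).add_left (zc _ _)
  · induction i using Fin.lastCases <;> simp only [Fin.lastCases_last, Fin.lastCases_castSucc]
    · exact ee
    · rw [(eu _).mul_mul_mul_comm, uu, ee, one_mul]
  · induction i using Fin.lastCases with
    | last =>
      simp only [Fin.lastCases_last]
      rw [CharTwo.sub_eq_add, add_mul, add_mul, ae, (zc 1 e).eq]
      linear_combination (norm := noncomm_ring) -(h2' * e)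
    | cast i =>
      simp only [Fin.lastCases_castSucc]
      rw [mul_assoc, (c2 i).eq, CharTwo.sub_eq_add]
      linear_combination (norm := noncomm_ring) -(h2' * (U i * e)) - U i * wu i * e - (zc (c i) (U i)).eq * e
  · induction i using Fin.lastCases <;> induction j using Fin.lastCases <;>
      simp only [Fin.lastCases_last, Fin.lastCases_castSucc]
    · exact absurd rfl h
    · exact c2 _
    · exact (two (au _) ae).symm.add_right (zc _ _).symm
    · exact (c1 _ _ fun e => h (congrArg _ e)).mul_left (c2 _)

end Cfsg.Agent.E8A
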