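import Cfsg.Agent.E8A.Ind

set_option autoImplicit false

namespace Cfsg.Agent.E8A

open Module

variable {H : Type*} [Group H] {k V : Type*} [Field k] [AddCommGroup V] [Module k V]

namespace ClifO

theorem anti {R : Type*} [Ring R] (a : Fin 16 → R) (hq : ∀ i, Qd (a i))
    (hr : ∀ i j, i ≠ j → a i * a j + a j * a i + a i + a j + 1 = 0) (i j : Fin 16) :
    (12 * a i - ∑ l, a l - 2) * (12 * a j - ∑ l, a l - 2) + (12 * a j - ∑ l, a l - 2) * (12 * a i - ∑ l, a l - 2)
      = if i = j then -144 else 0 := by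
  have h0 : ∀ i j, a i * a j + a j * a i + a i + a j + 1 + (if i = j then 1 else 0) = 0 := fun i j => by
    split_ifs with h
    · subst h
      have : a i * a i + a i + 1 = 0 := hq i
      linear_combination (norm := noncomm_ring) this + this
    · rw [add_zero, hr i j h]
  have h1 : ∀ i, a i * ∑ l, a l + (∑ l, a l) * a i + 16 * a i + ∑ l, a l + 17 = 0 := fun i => by
    have := Finset.sum_eq_zero (s := Finset.univ) fun j _ => h0 i j
    simp only [Finset.sum_add_distrib, ← Finset.mul_sum, ← Finset.sum_mul, Finset.sum_const, Finset.card_univ,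
      Fintype.card_fin, Finset.sum_ite_eq, Finset.mem_univ, if_true] at this
    linear_combination (norm := (noncomm_ring; norm_num)) this
  have h2 := Finset.sum_eq_zero (s := Finset.univ) fun j _ => h1 j
  simp only [Finset.sum_add_distrib, ← Finset.mul_sum, ← Finset.sum_mul, Finset.sum_const, Finset.card_univ,
    Fintype.card_fin] at h2
  have h3 := h0 i j
  have h4 := h1 i
  have h5 := h1 j
  generalize ∑ l, a l = S at *
  split_ifs at h3 ⊢ <;> linear_combination (norm := (noncomm_ring; norm_num)) 144 * h3 - 12 * h4 - 12 * h5 + h2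

theorem comm {R : Type*} [Ring R] {x y z : R} (h1 : x * y + y * x = 0) (h2 : x * z + z * x = 0) :
    Commute x (y * z) := by
  change _ = _
  linear_combination (norm := noncomm_ring) h1 * z - y * h2

end ClifO

theorem clifO [IsAlgClosed k] [FiniteDimensional k V] [Nontrivial V] (h2 : (2 : k) ≠ 0) (h3 : (3 : k) ≠ 0)
    (a : Fin 16 → End k V) (hq : ∀ i, Qd (a i))
    (hr : ∀ i j, i ≠ j → a i * a j + a j * a i + a i + a j + 1 = 0) : 256 ≤ finrank k V := by
  obtain ⟨w, hw⟩ : ∃ w : Fin 16 → End k V, ∀ i j, w i * w j + w j * w i = if i = j then -144 else 0 :=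
    ⟨_, ClifO.anti a hq hr⟩
  have h72 : (72 : k) ≠ 0 := by
    rw [show (72 : k) = 2 ^ 3 * 3 ^ 2 by norm_num]
    exact mul_ne_zero (pow_ne_zero _ h2) (pow_ne_zero _ h3)
  have ha : ∀ i j, i ≠ j → w i * w j + w j * w i = 0 := fun i j h => by rw [hw, if_neg h]
  have hs : ∀ i, w i * w i = (-72 : k) • 1 := fun i => by
    have := hw i i
    rw [if_pos rfl, ← two_smul k] at this
    refine smul_right_injective _ h2 ?_
    change (2 : k) • _ = (2 : k) • _
    rw [this, smul_smul, ← Algebra.algebraMap_eq_smul_one, map_mul, map_neg, map_ofNat, map_ofNat]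
    norm_num
  obtain ⟨I, hI⟩ := IsAlgClosed.exists_eq_mul_self (-1 : k)
  let e : Fin 8 → Fin 16 := fun i => ⟨2 * i, by omega⟩
  let o : Fin 8 → Fin 16 := fun i => ⟨2 * i + 1, by omega⟩
  have eo : ∀ i j, e i ≠ o j := by decide
  have ee : ∀ i j, i ≠ j → e i ≠ e j := by decide
  have oo : ∀ i j, i ≠ j → o i ≠ o j := by decide
  obtain ⟨J, hJ0⟩ : ∃ J : Fin 8 → End k V, J = fun i => (I / 72) • (w (e i) * w (o i)) := ⟨_, rfl⟩
  have hJ : ∀ i, J i * J i = 1 := fun i => by
    have : w (e i) * w (o i) * (w (e i) * w (o i)) = -(w (e i) * w (e i) * (w (o i) * w (o i))) := by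
      linear_combination (norm := noncomm_ring) w (e i) * ha _ _ (eo i i) * w (o i)
    simp only [hJ0]
    rw [smul_mul_smul_comm, this, hs, hs, smul_mul_smul_comm, mul_one, ← neg_smul, smul_smul, div_mul_div_comm,
      ← hI, show -1 / (72 * 72) * -(-72 * -72 : k) = 1 by field_simp, one_smul]
  have hc : ∀ i j, i ≠ j → Commute (w (e i)) (J j) := fun i j h =>
    hJ0 ▸ (ClifO.comm (ha _ _ (ee i j h)) (ha _ _ (eo i j))).smul_right _
  have hc' : ∀ i j, i ≠ j → Commute (w (o i)) (J j) := fun i j h =>
    hJ0 ▸ (ClifO.comm (ha _ _ (eo j i).symm) (ha _ _ (oo i j h))).smul_right _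
  have hJJ : ∀ i j, i ≠ j → Commute (J i) (J j) := fun i j h => by
    nth_rw 1 [hJ0]
    exact ((hc i j h).mul_left (hc' i j h)).smul_left _
  refine dbl (n := 8) (fun i => (1 / 2 : k) • (1 + J i)) (fun i => w (e i)) (fun i => (-72 : k)⁻¹ • w (e i))
    (fun i => ?_) (fun i j => ?_) (fun i => ?_) (fun i => ?_) fun i j h => ?_
  · rw [smul_mul_smul_comm, add_mul, mul_add, mul_add, hJ, one_mul, one_mul, mul_one]
    match_scalars <;> field_simp <;> norm_num
  · by_cases h : i = j
    · rw [h]
    · exact ((((Commute.one_left _).add_left ((Commute.one_right _).add_right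
        (hJJ i j h))).smul_left _).smul_right _)
  · rw [smul_mul_assoc, hs, smul_smul, inv_mul_cancel₀ (neg_ne_zero.2 h72), one_smul]
  · have : w (e i) * J i = -(J i * w (e i)) := by
      simp only [hJ0]
      rw [mul_smul_comm, smul_mul_assoc, ← smul_neg]
      congr 1
      linear_combination (norm := noncomm_ring) w (e i) * ha _ _ (eo i i)
    rw [mul_smul_comm, mul_add, this, sub_mul, smul_mul_assoc, add_mul]
    simp only [one_mul, mul_one]
    match_scalars <;> field_simp <;> norm_num
  · exact ((Commute.one_right _).add_right (hc i j h)).smul_right _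

end Cfsg.Agent.E8A
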