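import Cfsg.Agent.E8A.Defs

set_option autoImplicit false

namespace Cfsg.Agent.E8A

open Module

namespace CntAux

def W {n : ℕ} (x : Fin n → ZMod 3) : ℕ := ∑ i, if x i = 0 then 0 else 1

theorem wt_eq (x : E6) : wt x = W x := by
  rw [wt, W, Finset.card_filter]
  exact Finset.sum_congr rfl fun i _ => by simp

def C : List Bool → ℕ → Fin 3 → ℕ
  | [], w, s => if w = 0 ∧ s = 0 then 1 else 0
  | b :: l, 0, s => C l 0 s
  | b :: l, w + 1, s => C l (w + 1) s + (C l w (if b then s else s + 1) + C l w (if b then s else s + 2))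

theorem sum3 (F : ZMod 3 → ℕ) : ∑ y, F y = F 0 + (F 1 + F 2) := by
  rw [← add_assoc]; exact Fin.sum_univ_three F

theorem C_eq (n : ℕ) : ∀ (a : Fin n → ZMod 3) (w : ℕ) (s : ZMod 3),
    ∑ x : Fin n → ZMod 3, (if W x = w ∧ a ⬝ᵥ x = s then 1 else 0) =
      C (List.ofFn fun i => decide (a i = 0)) w s := by
  induction n with
  | zero =>
    intro a w s
    simp only [Finset.univ_unique, Finset.sum_singleton, W, Finset.univ_eq_empty, Finset.sum_empty,
      Matrix.dotProduct_of_isEmpty, List.ofFn_zero, C, eq_comm]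
    rfl
  | succ n ih =>
    intro a w s
    rw [← (Fin.consEquiv fun _ => ZMod 3).sum_comp, Fintype.sum_prod_type, sum3, List.ofFn_succ]
    have hW : ∀ (y : ZMod 3) (x : Fin n → ZMod 3),
        W (Fin.consEquiv (fun _ => ZMod 3) (y, x)) = (if y = 0 then 0 else 1) + W x := fun y x => by
      simp [W, Fin.sum_univ_succ, Fin.consEquiv]
    have hD : ∀ (y : ZMod 3) (x : Fin n → ZMod 3),
        (a ⬝ᵥ (Fin.consEquiv (fun _ => ZMod 3) (y, x)) = s) ↔
          (fun i => a i.succ) ⬝ᵥ x = s - a 0 * y := fun y x => by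
      simp [dotProduct, Fin.sum_univ_succ, Fin.consEquiv, eq_sub_iff_add_eq']
    simp only [hW, hD, if_true, zero_add, mul_zero, sub_zero, if_neg (by decide : (1 : ZMod 3) ≠ 0),
      if_neg (by decide : (2 : ZMod 3) ≠ 0)]
    rcases w with _ | w
    · simp only [ih, C]
      simp
    · simp only [add_comm 1, add_left_inj, ih, C]
      congr 1
      generalize a 0 = c
      rcases (by decide : ∀ c : ZMod 3, c = 0 ∨ c = 1 ∨ c = 2) c with rfl | rfl | rfl
      · simp
      · rw [add_comm, (by decide : ∀ s : ZMod 3, s - 1 * 2 = s + 1), (by decide : ∀ s : ZMod 3, s - 1 * 1 = s + 2)]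
        rfl
      · rw [(by decide : ∀ s : ZMod 3, s - 2 * 2 = s + 2), (by decide : ∀ s : ZMod 3, s - 2 * 1 = s + 1)]
        rfl

def tab (j w : ℕ) : ℕ :=
  (([[1, 12, 60, 160, 240, 192, 64], [1, 10, 40, 80, 80, 32, 0], [1, 8, 26, 48, 64, 64, 32],
    [1, 6, 18, 46, 84, 72, 16], [1, 4, 16, 56, 86, 56, 24], [1, 2, 20, 60, 70, 70, 20],
    [1, 0, 30, 40, 90, 60, 22]] : List (List ℕ)).getD j []).getD w 0

theorem C_tab : ∀ b0 b1 b2 b3 b4 b5 : Bool, ∀ w < 7, C [b0, b1, b2, b3, b4, b5] w 0 =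
    tab ((if b0 then 0 else 1) + (if b1 then 0 else 1) + (if b2 then 0 else 1) + (if b3 then 0 else 1) +
      (if b4 then 0 else 1) + (if b5 then 0 else 1)) w := by decide +kernel

theorem cnt_tab (a : E6) {w : ℕ} (hw : w < 7) :
    ∑ x : E6, (if wt x = w ∧ a ⬝ᵥ x = 0 then 1 else 0) = tab (wt a) w := by
  simp only [wt_eq]
  rw [C_eq, W, Fin.sum_univ_six]
  have := C_tab (decide (a 0 = 0)) (decide (a 1 = 0)) (decide (a 2 = 0)) (decide (a 3 = 0))
    (decide (a 4 = 0)) (decide (a 5 = 0)) w hw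
  simp only [decide_eq_true_eq] at this
  exact this

theorem wt_lt (a : E6) : wt a < 7 :=
  Nat.lt_succ_of_le ((Finset.card_filter_le _ _).trans (by simp))

def L : List ℤ := [134, 92, 86, 80]

def ok (a b c d e f : ℤ) : Bool :=
  let e0 := -30008 + 6 * a + 30 * b + 80 * c + 120 * d + 96 * e + 32 * f
  let e1 := 496 + 18 * a + 60 * b + 80 * c - 96 * e - 64 * f
  let e2 := 2480 + 60 * a + 90 * b - 80 * c - 240 * d + 160 * f
  let e3 := 19840 + 240 * a - 240 * b - 880 * c + 480 * d + 960 * e - 640 * f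
  let e4 := 9920 - 240 * b + 160 * c + 360 * d - 480 * e + 160 * f
  let e5 := 7936 - 96 * a + 320 * c - 480 * d + 288 * e - 64 * f
  let e6 := 7936 - 192 * a + 480 * b - 640 * c + 480 * d - 192 * e + 32 * f
  e0 % 243 == 0 && e1 % 81 == 0 && e2 % 81 == 0 && e3 % 243 == 0 && e4 % 81 == 0 && e5 % 81 == 0 &&
    e6 % 243 == 0 && 0 ≤ e0 && 0 ≤ e1 && 0 ≤ e2 && 0 ≤ e3 && 0 ≤ e4 && 0 ≤ e5 && 0 ≤ e6

theorem ok_cases : (L.all fun a => L.all fun b => L.all fun c => L.all fun d => L.all fun e =>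
    L.all fun f => !ok a b c d e f ||
      (a == 92 && b == 134 && c == 86 && d == 92 && e == 80 && f == 86)) = true := by
  decide +kernel

theorem solve {M f : ℕ → ℕ} (h0 : ∑ j ∈ Finset.range 7, M j = 248)
    (h : ∀ w < 7, w ≠ 0 → ∑ j ∈ Finset.range 7, M j * tab j w = f w * tab 0 w)
    (hf : ∀ w < 7, w ≠ 0 → f w ∈ ({134, 92, 86, 80} : Finset ℕ)) :
    M 3 = 0 ∧ M 4 = 0 ∧ M 5 = 0 ∧ M 6 = 128 := by
  have h1 := h 1 (by decide) (by decide)
  have h2 := h 2 (by decide) (by decide)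
  have h3 := h 3 (by decide) (by decide)
  have h4 := h 4 (by decide) (by decide)
  have h5 := h 5 (by decide) (by decide)
  have h6 := h 6 (by decide) (by decide)
  simp only [Finset.sum_range_succ, Finset.range_zero, Finset.sum_empty, zero_add, tab,
    List.getD_cons_succ, List.getD_cons_zero] at h0 h1 h2 h3 h4 h5 h6
  have hL : ∀ w < 7, w ≠ 0 → (f w : ℤ) ∈ L := fun w hw hw0 => by
    have := hf w hw hw0
    simp only [Finset.mem_insert, Finset.mem_singleton] at this
    rcases this with e | e | e | e <;> rw [e] <;> decide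
  have k := ok_cases
  simp only [List.all_eq_true] at k
  have k1 := k _ (hL 1 (by decide) (by decide)) _ (hL 2 (by decide) (by decide))
    _ (hL 3 (by decide) (by decide)) _ (hL 4 (by decide) (by decide)) _ (hL 5 (by decide) (by decide))
    _ (hL 6 (by decide) (by decide))
  generalize M 0 = m0, M 1 = m1, M 2 = m2, M 3 = m3, M 4 = m4, M 5 = m5, M 6 = m6 at *
  generalize f 1 = a, f 2 = b, f 3 = c, f 4 = d, f 5 = e, f 6 = g at *
  clear h hf hL k
  zify at h0 h1 h2 h3 h4 h5 h6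
  have e0 : -30008 + 6 * (a : ℤ) + 30 * b + 80 * c + 120 * d + 96 * e + 32 * g = 243 * m0 := by linarith
  have e1 : 496 + 18 * (a : ℤ) + 60 * b + 80 * c - 96 * e - 64 * g = 81 * m1 := by linarith
  have e2 : 2480 + 60 * (a : ℤ) + 90 * b - 80 * c - 240 * d + 160 * g = 81 * m2 := by linarith
  have e3 : 19840 + 240 * (a : ℤ) - 240 * b - 880 * c + 480 * d + 960 * e - 640 * g = 243 * m3 := by linarith
  have e4 : 9920 - 240 * (b : ℤ) + 160 * c + 360 * d - 480 * e + 160 * g = 81 * m4 := by linarith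
  have e5 : 7936 - 96 * (a : ℤ) + 320 * c - 480 * d + 288 * e - 64 * g = 81 * m5 := by linarith
  have e6 : 7936 - 192 * (a : ℤ) + 480 * b - 640 * c + 480 * d - 192 * e + 32 * g = 243 * m6 := by linarith
  have hok : ok a b c d e g = true := by
    simp only [ok, e0, e1, e2, e3, e4, e5, e6, Bool.and_eq_true, beq_iff_eq, decide_eq_true_eq,
      Int.mul_emod_right, true_and]
    refine ⟨⟨⟨⟨⟨⟨?_, ?_⟩, ?_⟩, ?_⟩, ?_⟩, ?_⟩, ?_⟩ <;> positivity
  simp only [hok, Bool.not_true, Bool.false_or, Bool.and_eq_true, beq_iff_eq] at k1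
  obtain ⟨⟨⟨⟨⟨q1, q2⟩, q3⟩, q4⟩, q5⟩, q6⟩ := k1
  simp only [q1, q2, q3, q4, q5, q6] at e3 e4 e5 e6
  clear h0 h1 h2 h3 h4 h5 h6 e0 e1 e2
  omega

end CntAux

open CntAux in
theorem cnt (m : E6 → ℕ) (f : ℕ → ℕ) (h0 : ∑ a, m a = 248)
    (hf : ∀ x : E6, x ≠ 0 → f (wt x) ∈ ({134, 92, 86, 80} : Finset ℕ) ∧
      ∑ a ∈ Finset.univ.filter (fun a : E6 => a ⬝ᵥ x = 0), m a = f (wt x)) :
    (∀ a, 3 ≤ wt a → wt a ≤ 5 → m a = 0) ∧
      ∑ a ∈ Finset.univ.filter (fun a : E6 => wt a = 6), m a = 128 := by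
  have hmap : ∀ a ∈ (Finset.univ : Finset E6), wt a ∈ Finset.range 7 :=
    fun a _ => Finset.mem_range.2 (wt_lt a)
  have hw0 : wt 0 = 0 := by simp [wt]
  have key := solve (M := fun j => ∑ a ∈ Finset.univ.filter (fun a : E6 => wt a = j), m a) (f := f)
    (by rw [Finset.sum_fiberwise_of_maps_to hmap, h0]) (fun w hw hw1 => by
      calc _ = ∑ j ∈ Finset.range 7, ∑ a ∈ Finset.univ.filter (fun a : E6 => wt a = j),
            m a * tab (wt a) w := Finset.sum_congr rfl fun j _ => by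
              rw [Finset.sum_mul]
              exact Finset.sum_congr rfl fun a ha => by rw [(Finset.mem_filter.1 ha).2]
        _ = ∑ a : E6, ∑ x : E6, m a * (if wt x = w ∧ a ⬝ᵥ x = 0 then 1 else 0) := by
              rw [Finset.sum_fiberwise_of_maps_to hmap]
              exact Finset.sum_congr rfl fun a _ => by rw [← cnt_tab a hw, Finset.mul_sum]
        _ = ∑ x : E6, f w * (if wt x = w ∧ (0 : E6) ⬝ᵥ x = 0 then 1 else 0) := by
              rw [Finset.sum_comm]
              refine Finset.sum_congr rfl fun x _ => ?_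
              by_cases hx : wt x = w
              · have hx0 : x ≠ 0 := by rintro rfl; exact hw1 (hx.symm.trans hw0)
                rw [← hx, ← (hf x hx0).2, Finset.sum_filter]
                simp
              · simp [hx]
        _ = f w * tab 0 w := by rw [← Finset.mul_sum, cnt_tab 0 hw, hw0])
    (fun w hw hw1 => by
      obtain ⟨x, hx⟩ : ∃ x : E6, wt x = w := by
        refine ⟨fun i => if i.val < w then 1 else 0, ?_⟩
        interval_cases w <;> decide
      rw [← hx]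
      exact (hf x (by rintro rfl; exact hw1 (hx.symm.trans hw0))).1)
  obtain ⟨k3, k4, k5, k6⟩ := key
  refine ⟨fun a h3 h5 => ?_, k6⟩
  rw [Finset.sum_eq_zero_iff] at k3 k4 k5
  rcases (by omega : wt a = 3 ∨ wt a = 4 ∨ wt a = 5) with e | e | e
  · exact k3 a (Finset.mem_filter.2 ⟨Finset.mem_univ _, e⟩)
  · exact k4 a (Finset.mem_filter.2 ⟨Finset.mem_univ _, e⟩)
  · exact k5 a (Finset.mem_filter.2 ⟨Finset.mem_univ _, e⟩)

end Cfsg.Agent.E8A
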