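import Cfsg.Agent.E8A.Defs
import Cfsg.Agent.H92.SylIn
import Cfsg.Agent.H49.Prod
import Cfsg.Agent.H22.CoprimeQuot

set_option autoImplicit false

namespace Cfsg.Agent.E8A

open Module

variable {H : Type*} [Group H] {k V : Type*} [Field k] [AddCommGroup V] [Module k V]

theorem cop_pgroup {ι : Type} (c : ι → H) (h1 : ∀ i, c i ^ 3 = 1) (h2 : ∀ i j, Commute (c i) (c j)) :
    IsPGroup 3 (Subgroup.closure (Set.range c)) := by
  have hc : Subgroup.closure (Set.range c) ≤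
      Subgroup.centralizer (Subgroup.closure (Set.range c) : Set H) := by
    rw [Subgroup.centralizer_closure, Subgroup.closure_le]
    rintro _ ⟨i, rfl⟩ _ ⟨j, rfl⟩
    exact h2 j i
  have h3 : ∀ x ∈ Subgroup.closure (Set.range c), x ^ 3 = 1 := fun x hx => by
    induction hx using Subgroup.closure_induction with
    | mem x hx => obtain ⟨i, rfl⟩ := hx; exact h1 i
    | one => exact one_pow 3
    | mul x y hx hy a b => rw [Commute.mul_pow (hc hy x hx), a, b, one_mul]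
    | inv x _ a => rw [inv_pow, a, inv_one]
  exact fun x => ⟨1, Subtype.ext (by simpa using h3 x x.2)⟩

theorem cop_inj [Finite H] {S : Type*} [Group S] {φ : H →* S} (h3 : ¬ 3 ∣ Nat.card φ.ker)
    {P : Subgroup H} (hP : IsPGroup 3 P) {a b : H} (ha : a ∈ P) (hb : b ∈ P) (e : φ a = φ b) : a = b := by
  haveI := Fact.mk Nat.prime_three
  have m : a⁻¹ * b ∈ φ.ker := by rw [MonoidHom.mem_ker, map_mul, map_inv, e, inv_mul_cancel]
  obtain ⟨j, hj⟩ := IsPGroup.iff_orderOf.1 hP ⟨a⁻¹ * b, mul_mem (inv_mem ha) hb⟩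
  rw [← Subgroup.orderOf_coe] at hj
  have d := Subgroup.orderOf_dvd_natCard _ m
  rw [hj] at d
  rcases j with _ | j
  · exact inv_mul_eq_one.1 (orderOf_eq_one_iff.1 hj)
  · exact absurd ((dvd_pow_self 3 j.succ_ne_zero).trans d) h3

theorem cop [Finite H] {S : Type*} [Group S] (φ : H →* S) (hs : Function.Surjective φ)
    (h3 : ¬ 3 ∣ Nat.card φ.ker) {ι : Type} (c c' : ι → H) (h1 : ∀ i, c i ^ 3 = 1)
    (h2 : ∀ i j, Commute (c i) (c j)) (h1' : ∀ i, c' i ^ 3 = 1) (h2' : ∀ i j, Commute (c' i) (c' j))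
    (y : S) (hy : ∀ i, y * φ (c i) * y⁻¹ = φ (c' i)) : ∃ n, φ n = y ∧ ∀ i, n * c i * n⁻¹ = c' i := by
  haveI := Fact.mk Nat.prime_three
  obtain ⟨t, rfl⟩ := hs y
  have p' := cop_pgroup c' h1' h2'
  have p := cop_pgroup (fun i => t * c i * t⁻¹) (fun i => by rw [conj_pow, h1, mul_one, mul_inv_cancel])
    fun i j => by
      show _ * _ = _ * _
      rw [conj_mul, conj_mul, (h2 i j).eq]
  set P' := Subgroup.closure (Set.range c')
  have hS : H92.SylIn 3 P' (φ.ker ⊔ P') := H92.sylIn_of_not_dvd_relIndex le_sup_right p' fun d => h3 (by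
    rw [H49.relIndex_sup_of_norm (Or.inr Subgroup.le_normalizer_of_normal)] at d
    exact d.trans (Subgroup.relIndex_dvd_card _ _))
  have m : ∀ i, c' i ∈ P' := fun i => Subgroup.subset_closure ⟨i, rfl⟩
  obtain ⟨g, hg, e⟩ := hS.exists_conj ((Subgroup.closure_le _).2 (by
    rintro _ ⟨i, rfl⟩
    have k : t * c i * t⁻¹ * (c' i)⁻¹ ∈ φ.ker := by
      rw [MonoidHom.mem_ker, map_mul, map_mul, map_mul, map_inv, hy, map_inv, mul_inv_cancel]
    simpa using Subgroup.mul_mem_sup k (m i))) p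
  obtain ⟨a, ha, u, hu, rfl⟩ := Subgroup.mem_sup_of_normal_left.1 hg
  have e1 : φ (u⁻¹ * (a * u) * t) = φ t := by
    rw [map_mul, map_mul, map_mul, MonoidHom.mem_ker.1 ha, one_mul, map_inv, inv_mul_cancel, one_mul]
  refine ⟨u⁻¹ * (a * u) * t, e1, fun i => cop_inj h3 p' ?_ (m i) ?_⟩
  · have := mul_mem (mul_mem (inv_mem hu) (e _ (Subgroup.subset_closure ⟨i, rfl⟩))) hu
    convert this using 1
    group
  · rw [map_mul, map_mul, map_inv, e1, hy]

theorem exists_lf [Finite H] (M : Mn H) (h3 : ¬ 3 ∣ Nat.card M.φ.ker) : Nonempty (Lf M) := by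
  haveI := Fact.mk Nat.prime_three
  have h1 : ∀ i, cyc i ^ 3 = 1 := fun i => Subtype.ext (by
    show tc (bl i 0) (bl i 1) (bl i 2) ^ 3 = 1
    revert i
    decide +kernel)
  have h2 : ∀ i j, Commute (cyc i) (cyc j) := fun i j => Subtype.ext (by
    show tc (bl i 0) (bl i 1) (bl i 2) * tc (bl j 0) (bl j 1) (bl j 2) =
      tc (bl j 0) (bl j 1) (bl j 2) * tc (bl i 0) (bl i 1) (bl i 2)
    revert i j
    decide +kernel)
  obtain ⟨Q, -, hQ, e⟩ := H22.exists_isPGroup_map_eq M.φ (H := ⊤) (cop_pgroup cyc h1 h2)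
    (by rw [Subgroup.map_top_of_surjective M.φ M.surj]; exact le_top)
  have : ∀ i, ∃ a ∈ Q, M.φ a = cyc i := fun i => e.ge (Subgroup.subset_closure ⟨i, rfl⟩)
  choose c hc hc' using this
  exact ⟨c, hc', fun i => cop_inj h3 hQ (pow_mem (hc i) 3) (one_mem Q) (by rw [map_pow, hc', h1, map_one]),
    fun i j => cop_inj h3 hQ (mul_mem (hc i) (hc j)) (mul_mem (hc j) (hc i))
      (by rw [map_mul, map_mul, hc', hc', (h2 i j).eq])⟩

end Cfsg.Agent.E8A
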