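import Mathlib

/-! Project E8A: alternating sections of `E₈(q)`. Definitions. -/

set_option autoImplicit false

namespace Cfsg.Agent.E8A

open Module

abbrev A18 : Type := alternatingGroup (Fin 18)

/-- a minimal preimage of `A₁₈` -/
structure Mn (H : Type*) [Group H] where
  φ : H →* A18
  surj : Function.Surjective φ
  min : ∀ L : Subgroup H, L.map φ = ⊤ → L = ⊤

/-- elementary abelian sections of `3`-subgroups have order at most `3 ^ 13` -/
def SR (H : Type*) [Group H] : Prop :=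
  ∀ R R₀ : Subgroup H, IsPGroup 3 R → R₀ ≤ R → (∀ x ∈ R, ∀ y ∈ R, x * y * x⁻¹ * y⁻¹ ∈ R₀) →
    (∀ x ∈ R, x ^ 3 ∈ R₀) → R₀.relIndex R ≤ 3 ^ 13

/-- the fixed spaces of the elements of order `3` have the dimensions found in `E₈` -/
def Tr {k H V : Type*} [Field k] [Group H] [AddCommGroup V] [Module k V]
    (ρ : Representation k H V) : Prop :=
  ∀ g : H, g ^ 3 = 1 → g ≠ 1 →
    finrank k (End.eigenspace (ρ g) 1) ∈ ({134, 92, 86, 80} : Finset ℕ)

/-- `T` is quadratic: `T ^ 2 + T + 1 = 0` -/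
def Qd {R : Type*} [Ring R] (T : R) : Prop := T * T + T + 1 = 0

/-- irreducible -/
def Irr {k H V : Type*} [Field k] [Group H] [AddCommGroup V] [Module k V]
    (ρ : Representation k H V) : Prop :=
  Nontrivial V ∧ ∀ W : Submodule k V, (∀ g, ∀ v ∈ W, ρ g v ∈ W) → W = ⊥ ∨ W = ⊤

/-- the 3-cycle `(a b c)` -/
def tc (a b c : Fin 18) : Equiv.Perm (Fin 18) := Equiv.swap a b * Equiv.swap b c

/-- the points of the `i`-th block -/
def bl (i : Fin 6) (j : Fin 3) : Fin 18 := ⟨3 * i + j, by omega⟩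

/-- the six disjoint 3-cycles -/
def cyc (i : Fin 6) : A18 :=
  ⟨tc (bl i 0) (bl i 1) (bl i 2), Equiv.Perm.mem_alternatingGroup.2 (by revert i; decide)⟩

abbrev E6 : Type := Fin 6 → ZMod 3

/-- the number of nonzero coordinates -/
def wt (x : E6) : ℕ := (Finset.univ.filter fun i => x i ≠ 0).card

/-- the product `∏ c i ^ x i` -/
def pw {M : Type*} [Monoid M] (c : Fin 6 → M) (x : E6) : M :=
  (List.ofFn fun i => c i ^ (x i).val).prod

/-- joint eigenspaces -/
noncomputable def jt {k V : Type*} [Field k] [AddCommGroup V] [Module k V] (ω : k) {n : ℕ}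
    (c : Fin n → End k V) (a : Fin n → ZMod 3) : Submodule k V :=
  ⨅ i, End.eigenspace (c i) (ω ^ (a i).val)

/-- commuting lifts of order `3` of the six 3-cycles -/
structure Lf {H : Type*} [Group H] (M : Mn H) where
  c : Fin 6 → H
  map : ∀ i, M.φ (c i) = cyc i
  cube : ∀ i, c i ^ 3 = 1
  comm : ∀ i j, Commute (c i) (c j)

theorem map_pw {M N : Type*} [Monoid M] [Monoid N] (f : M →* N) (c : Fin 6 → M) (x : E6) :
    f (pw c x) = pw (fun i => f (c i)) x := by
  simp [pw, List.ofFn_succ]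

end Cfsg.Agent.E8A
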