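import Cfsg.Agent.E8A.Defs

set_option autoImplicit false
set_option linter.unusedSectionVars false
set_option linter.unusedVariables false

namespace Cfsg.Agent.E8A

open Module

variable {H : Type*} [Group H] {k V : Type*} [Field k] [AddCommGroup V] [Module k V]

theorem Eig.one [FiniteDimensional k V] {ω : k} (hω : IsPrimitiveRoot ω 3) (c : End k V)
    (h3 : c ^ 3 = 1) (W : Submodule k V) (hW : ∀ v ∈ W, c v ∈ W) :
    finrank k W = ∑ j : ZMod 3, finrank k ↥(W ⊓ End.eigenspace c (ω ^ j.val)) := by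
  have w3 : ω ^ 3 = 1 := hω.pow_eq_one
  have w0 : ω ^ 2 + ω + 1 = 0 := by
    have := hω.geom_sum_eq_zero (by norm_num)
    simp only [Finset.sum_range_succ, Finset.range_zero, Finset.sum_empty] at this
    linear_combination this
  have h30 : (3 : k) ≠ 0 := fun e => hω.ne_one (by norm_num) (by
    have : (ω - 1) ^ 2 = 0 := by linear_combination w0 - ω * e
    exact sub_eq_zero.1 (pow_eq_zero_iff (two_ne_zero) |>.1 this))
  have c3 : ∀ v, c (c (c v)) = v := fun v => by
    have := congrArg (fun f : End k V => f v) h3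
    simpa [pow_succ] using this
  have inj : Function.Injective fun j : ZMod 3 => ω ^ j.val := fun i j e =>
    ZMod.val_injective 3 (hω.pow_inj (ZMod.val_lt i) (ZMod.val_lt j) e)
  have ind : iSupIndep fun j : ZMod 3 => W ⊓ End.eigenspace c (ω ^ j.val) :=
    ((End.eigenspaces_iSupIndep c).comp inj).mono fun j => inf_le_right
  have top : W = ⨆ j : ZMod 3, W ⊓ End.eigenspace c (ω ^ j.val) := by
    refine le_antisymm (fun v hv => ?_) (iSup_le fun j => inf_le_left)
    have m : ∀ j : ZMod 3, v + (ω ^ j.val) ^ 2 • c v + ω ^ j.val • c (c v) ∈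
        ⨆ j : ZMod 3, W ⊓ End.eigenspace c (ω ^ j.val) := fun j => by
      refine Submodule.mem_iSup_of_mem j ⟨W.add_mem (W.add_mem hv (W.smul_mem _ (hW v hv)))
        (W.smul_mem _ (hW _ (hW v hv))), End.mem_eigenspace_iff.2 ?_⟩
      have e : (ω ^ j.val) ^ 3 = 1 := by rw [← pow_mul, mul_comm, pow_mul, w3, one_pow]
      generalize ω ^ j.val = t at e
      simp only [map_add, map_smul, c3]
      linear_combination (norm := module) -(e • c v)
    have := Submodule.smul_mem _ (3 : k)⁻¹ (Submodule.add_mem _ (Submodule.add_mem _ (m 0) (m 1)) (m 2))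
    convert this using 1
    rw [eq_inv_smul_iff₀ h30, show (0 : ZMod 3).val = 0 from rfl, show (1 : ZMod 3).val = 1 from rfl,
      show (2 : ZMod 3).val = 2 from rfl]
    linear_combination (norm := module) -(w0 • c v) - (ω * w3) • c v - w0 • c (c v)
  conv_lhs => rw [top]
  have := (LinearEquiv.ofInjective _ ind.dfinsupp_lsum_injective).finrank_eq
  rw [← Submodule.iSup_eq_range_dfinsupp_lsum] at this
  rw [← this]
  exact finrank_directSum k _

theorem eig [FiniteDimensional k V] {ω : k} (hω : IsPrimitiveRoot ω 3) {n : ℕ}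
    (c : Fin n → End k V) (h3 : ∀ i, c i ^ 3 = 1) (hc : ∀ i j, Commute (c i) (c j))
    (W : Submodule k V) (hW : ∀ i, ∀ v ∈ W, c i v ∈ W) :
    finrank k W = ∑ a : Fin n → ZMod 3, finrank k ↥(W ⊓ jt ω c a) := by
  induction n generalizing W with
  | zero =>
    rw [Fintype.sum_unique, jt, iInf_of_empty, inf_top_eq]
  | succ n ih =>
    rw [Eig.one hω (c 0) (h3 0) W (hW 0), ← (Fin.consEquiv fun _ => ZMod 3).sum_comp,
      Fintype.sum_prod_type]
    refine Finset.sum_congr rfl fun j _ => ?_
    rw [ih (fun i => c i.succ) (fun i => h3 _) (fun i j => hc _ _)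
      (W ⊓ End.eigenspace (c 0) (ω ^ j.val)) fun i v hv => ⟨hW _ v hv.1, End.mem_eigenspace_iff.2 (by
        rw [← End.mul_apply, (hc 0 i.succ).eq, End.mul_apply, End.mem_eigenspace_iff.1 hv.2,
          map_smul])⟩]
    refine Finset.sum_congr rfl fun a _ => ?_
    have : W ⊓ End.eigenspace (c 0) (ω ^ j.val) ⊓ jt ω (fun i => c i.succ) a =
        W ⊓ jt ω c ((Fin.consEquiv fun _ => ZMod 3) (j, a)) := by
      ext v
      simp only [jt, Submodule.mem_inf, Submodule.mem_iInf, Fin.forall_fin_succ, and_assoc]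
      rfl
    rw [this]

end Cfsg.Agent.E8A
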