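import Cfsg.Agent.E8A.Defs

set_option autoImplicit false

namespace Cfsg.Agent.E8A

open Module

variable {H : Type*} [Group H] {k V : Type*} [Field k] [AddCommGroup V] [Module k V]

theorem indep {R ι : Type*} (T : R → End k V) (v : ι → V) (hv : ∀ i, v i ≠ 0) (χ : ι → R → k)
    (hχ : Function.Injective χ) (h : ∀ i y, T y (v i) = χ i y • v i) : LinearIndependent k v := by
  classical
  rw [linearIndependent_iff']
  intro s
  induction s using Finset.induction_on with
  | empty => simp
  | insert a s ha ih =>
    intro g hg
    rw [Finset.sum_insert ha] at hg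
    have k1 : ∀ i ∈ s, g i = 0 := fun i hi => by
      obtain ⟨y, hy⟩ := Function.ne_iff.1 (hχ.ne (show i ≠ a from fun e => ha (e ▸ hi)))
      have := ih (fun j => g j * (χ j y - χ a y)) (by
        have e := congrArg (fun w => T y w - χ a y • w) hg
        simp only [map_add, map_smul, map_sum, h, smul_add, Finset.smul_sum, map_zero, smul_zero,
          sub_zero] at e
        rw [smul_comm (g a), add_sub_add_left_eq_sub, ← Finset.sum_sub_distrib] at e
        rw [← e]
        exact Finset.sum_congr rfl fun j _ => by module) i hi
      exact (mul_eq_zero.1 this).resolve_right (sub_ne_zero.2 hy)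
    intro i hi
    rcases Finset.mem_insert.1 hi with rfl | hi
    · rw [Finset.sum_eq_zero (fun j hj => by rw [k1 j hj, zero_smul]), add_zero] at hg
      exact (smul_eq_zero.1 hg).resolve_right (hv _)
    · exact k1 i hi

theorem dbl [FiniteDimensional k V] [Nontrivial V] {n : ℕ} (π s t : Fin n → End k V)
    (hπ : ∀ i, π i * π i = π i) (hc : ∀ i j, Commute (π i) (π j)) (hst : ∀ i, t i * s i = 1)
    (h1 : ∀ i, s i * π i = (1 - π i) * s i) (h2 : ∀ i j, i ≠ j → Commute (s i) (π j)) :
    2 ^ n ≤ finrank k V := by
  classical
  have key : ∀ (ε : Fin n → Bool) (m : Finset (Fin n)), ∃ v : V, v ≠ 0 ∧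
      ∀ j ∈ m, π j v = (if ε j then (1 : k) else 0) • v := by
    intro ε m
    induction m using Finset.induction_on with
    | empty => obtain ⟨v, hv⟩ := exists_ne (0 : V); exact ⟨v, hv, by simp⟩
    | insert a m ha ih =>
      obtain ⟨v, v0, hv⟩ := ih
      obtain ⟨w, w0, hw, δ, hδ⟩ : ∃ w : V, w ≠ 0 ∧
          (∀ j ∈ m, π j w = (if ε j then (1 : k) else 0) • w) ∧
          ∃ δ : Bool, π a w = (if δ then (1 : k) else 0) • w := by
        by_cases e : π a v = 0
        · exact ⟨v, v0, hv, false, by simp [e]⟩
        · refine ⟨π a v, e, fun j hj => ?_, true, ?_⟩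
          · rw [← End.mul_apply, (hc j a).eq, End.mul_apply, hv j hj, map_smul]
          · rw [← End.mul_apply, hπ]; simp
      by_cases e : δ = ε a
      · exact ⟨w, w0, fun j hj => by
          rcases Finset.mem_insert.1 hj with rfl | hj
          exacts [e ▸ hδ, hw j hj]⟩
      · refine ⟨s a w, fun e0 => w0 ?_, fun j hj => ?_⟩
        · have := LinearMap.congr_fun (hst a) w
          rw [End.mul_apply, e0, map_zero] at this
          exact this.symm
        · rcases Finset.mem_insert.1 hj with rfl | hj
          · have := LinearMap.congr_fun (h1 j) w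
            rw [End.mul_apply, End.mul_apply, hδ, map_smul, LinearMap.sub_apply, End.one_apply,
              eq_sub_iff_add_eq'] at this
            rw [eq_sub_of_add_eq this]
            revert e
            cases δ <;> cases ε j <;> simp
          · rw [← End.mul_apply, ← (h2 a j fun e => ha (e ▸ hj)).eq, End.mul_apply, hw j hj, map_smul]
  choose v v0 hv using fun ε => key ε Finset.univ
  have := (indep π v v0 (fun ε j => if ε j then (1 : k) else 0) (fun ε ε' e => funext fun j => by
    have : (if ε j then (1 : k) else 0) = if ε' j then (1 : k) else 0 := congrFun e j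
    revert this
    cases ε j <;> cases ε' j <;> simp) fun ε j => hv ε j (Finset.mem_univ _)).fintype_card_le_finrank
  simpa using this

end Cfsg.Agent.E8A
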