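import Cfsg.Agent.E8A.Act
import Cfsg.Agent.S0892
import Cfsg.Agent.H1.Frattini
import Cfsg.Agent.H22.CoprimeQuot

/-! The kernel of a minimal preimage has order prime to three. -/

set_option autoImplicit false

namespace Cfsg.Agent.E8A

open Module

variable {H : Type*} [Group H] {k V : Type*} [Field k] [AddCommGroup V] [Module k V]

theorem K3_z : (∀ a : Multiplicative (ZMod 3), a ^ 3 = 1) ∧ Multiplicative.ofAdd (1 : ZMod 3) ≠ 1 := by decide

theorem K3_hom {G : Type*} [Group G] [Finite G] (hG : Group.IsNilpotent G) (h3 : 3 ∣ Nat.card G) :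
    ∃ (f : G →* Multiplicative (ZMod 3)) (x : G), f x ≠ 1 := by
  have : Fact (Nat.Prime 3) := ⟨Nat.prime_three⟩
  obtain ⟨e⟩ : Nonempty ((∀ p : (Nat.card G).primeFactors, ∀ P : Sylow p G, (↑P : Subgroup G)) ≃* G) :=
    (Group.isNilpotent_of_finite_tfae.out 0 4 rfl rfl).mp hG
  let P : Sylow 3 G := default
  let i : (Nat.card G).primeFactors := ⟨3, Nat.mem_primeFactors.2 ⟨Nat.prime_three, h3, Nat.card_pos.ne'⟩⟩
  let g : G →* P := (Pi.evalMonoidHom (fun Q : Sylow 3 G => (Q : Subgroup G)) P).comp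
    ((Pi.evalMonoidHom (fun p : (Nat.card G).primeFactors => ∀ Q : Sylow p G, (Q : Subgroup G)) i).comp
      e.symm.toMonoidHom)
  have hg : Function.Surjective g :=
    (Function.surjective_eval P).comp ((Function.surjective_eval i).comp e.symm.surjective)
  have : Nontrivial P := (Subgroup.nontrivial_iff_ne_bot _).2 (P.ne_bot_of_dvd_card h3)
  obtain ⟨N, hN, -⟩ := (eq_top_or_exists_le_coatom (⊥ : Subgroup P)).resolve_left bot_ne_top
  have := H1.normal_of_isCoatom_of_pgroup P.isPGroup' hN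
  let e' : P ⧸ N ≃* Multiplicative (ZMod 3) :=
    mulEquivOfPrimeCardEq (p := 3) (H1.index_eq_of_isCoatom_of_pgroup P.isPGroup' hN) (by simp)
  obtain ⟨y, hy⟩ := (e'.surjective.comp ((QuotientGroup.mk'_surjective N).comp hg)) (Multiplicative.ofAdd 1)
  exact ⟨e'.toMonoidHom.comp ((QuotientGroup.mk' N).comp g), y, fun h => K3_z.2 (hy.symm.trans h)⟩

/-- the common kernel of the homomorphisms to the group of order three -/
def K3_sub (G : Type*) [Group G] : Subgroup G := ⨅ f : G →* Multiplicative (ZMod 3), f.ker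

theorem K3_mem {G : Type*} [Group G] {x : G} : x ∈ K3_sub G ↔ ∀ f : G →* Multiplicative (ZMod 3), f x = 1 := by
  simp [K3_sub, Subgroup.mem_iInf]

instance K3_char {G : Type*} [Group G] : (K3_sub G).Characteristic :=
  Subgroup.characteristic_iff_le_comap.2 fun φ _ hx => K3_mem.2 fun f => K3_mem.1 hx (f.comp φ.toMonoidHom)

theorem not_three_dvd [Finite H] (M : Mn H) (h : SR H) : ¬ 3 ∣ Nat.card M.φ.ker := by
  intro h3
  have : Fact (Nat.Prime 3) := ⟨Nat.prime_three⟩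
  have h0 := K3_hom M.nil h3
  set K := M.φ.ker with hK
  obtain ⟨f, x₀, hx₀⟩ := h0
  set K₀ := (K3_sub K).map K.subtype with hK₀
  have : K₀.Normal := ConjAct.normal_of_characteristic_of_normal
  have hle : K₀ ≤ K := Subgroup.map_subtype_le _
  have hc : ∀ x ∈ K, ∀ y ∈ K, x * y * x⁻¹ * y⁻¹ ∈ K₀ := fun x hx y hy =>
    ⟨⟨x, hx⟩ * ⟨y, hy⟩ * ⟨x, hx⟩⁻¹ * ⟨y, hy⟩⁻¹, K3_mem.2 fun f => by
      simp only [map_mul, map_inv]
      rw [mul_inv_cancel_comm, mul_inv_cancel], rfl⟩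
  have hp : ∀ x ∈ K, x ^ 3 ∈ K₀ := fun x hx =>
    ⟨⟨x, hx⟩ ^ 3, K3_mem.2 fun f => by rw [map_pow, K3_z.1], rfl⟩
  set π := QuotientGroup.mk' K₀ with hπ
  have hker : π.ker = K₀ := QuotientGroup.ker_mk' K₀
  have hZ : IsPGroup 3 (K.map π) := by
    rintro ⟨_, x, hx, rfl⟩
    refine ⟨1, Subtype.ext ?_⟩
    rw [pow_one, Subgroup.coe_pow, ← map_pow]
    exact (QuotientGroup.eq_one_iff _).2 (hp x hx)
  obtain ⟨Q, hQK, hQ, hQZ⟩ := H22.exists_isPGroup_map_eq π hZ le_rfl
  have h1 := h Q (K₀ ⊓ Q) hQ inf_le_right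
    (fun x hx y hy => ⟨hc x (hQK hx) y (hQK hy), Q.mul_mem (Q.mul_mem (Q.mul_mem hx hy) (Q.inv_mem hx)) (Q.inv_mem hy)⟩)
    fun x hx => ⟨hp x (hQK hx), pow_mem hx 3⟩
  have h2 : K₀.relIndex K < 3 ^ 16 := by
    rw [Subgroup.inf_relIndex_right, ← hker, Subgroup.relIndex_ker, hQZ] at h1
    rw [← hker, Subgroup.relIndex_ker]
    exact h1.trans_lt (by norm_num)
  have h4 := act_triv M Nat.prime_three hle hc hc hp h2
  have : (K.map π).Normal := Subgroup.Normal.map inferInstance π (QuotientGroup.mk'_surjective K₀)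
  have h5 := S0892.result 18 (by norm_num) (by norm_num) (by norm_num) (K.map π) (by
      rintro _ ⟨x, hx, rfl⟩
      refine Subgroup.mem_center_iff.2 fun g => ?_
      obtain ⟨g, rfl⟩ := QuotientGroup.mk'_surjective K₀ g
      have h6 := (QuotientGroup.eq_one_iff _).2 (h4 g x hx)
      rw [← hπ, ← mul_inv_eq_iff_eq_mul, ← mul_inv_eq_one]
      exact h6)
    (by
      have h6 := map_commutator_eq H π
      rw [M.perfect, MonoidHom.range_eq_top.2 (QuotientGroup.mk'_surjective K₀), ← commutator_def] at h6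
      rw [← h6]
      exact Subgroup.map_mono le_top)
    ((QuotientGroup.quotientQuotientEquivQuotient K₀ K hle).trans
      (QuotientGroup.quotientKerEquivOfSurjective M.φ M.surj))
  obtain ⟨n, hn⟩ := IsPGroup.iff_card.1 hZ
  obtain rfl : n = 0 := by
    by_contra h0
    have := Nat.pow_le_pow_right (show 0 < 3 by norm_num) (Nat.one_le_iff_ne_zero.2 h0)
    omega
  rw [pow_zero, ← Subgroup.relIndex_ker, hker, Subgroup.relIndex_eq_one] at hn
  obtain ⟨y, hy, e⟩ := hn x₀.2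
  obtain rfl : y = x₀ := Subtype.ext e
  exact hx₀ (K3_mem.1 hy f)

end Cfsg.Agent.E8A
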