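import Cfsg.Agent.H37.EwB

/-! Project E8A: eigenvalues of semisimple elements of `E₈(q)` in the adjoint representation. -/

set_option autoImplicit false

namespace Cfsg.Agent.E8A

open Cfsg.Lie Cfsg.Agent.H37 Cfsg.Agent.H38 Cfsg.Agent.H39 Matrix Finset Cfsg.Agent.H37.Ew Cfsg.Agent.H37.S2

/-- The adjoint representation over the algebraic closure. -/
theorem exists_rep {F : Type*} [Field F] [Finite F] (p : ℕ) [Fact p.Prime] [CharP F p]
    {D : ChevalleyDatum} (hD : IsChev D) (h8 : D.rank = 8) (h0 : H64.HasInv D 1) {T : Tab}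
    (hT : Checked D T) :
    ∃ ρ : Representation (AlgebraicClosure F) (D.group F) (D.Idx → AlgebraicClosure F),
    Function.Injective ρ ∧
    (∀ m x, m.Coprime p → x ^ m = 1 → ∀ ζ, IsPrimitiveRoot ζ m → ∃ a : ℕ → ℕ,
      (∀ s < D.nroots, ∑ j ∈ range 8, T.vec s j * a j ≤ m) ∧ ∀ E : ℕ → ℕ, (∀ s < D.nroots, (E s : ℤ) ≡ ∑ j ∈ range 8,
        T.vec s j * a j [ZMOD m]) → ∀ e, ∀ y < m, dm ⊤ (ρ (x ^ e)) (ζ ^ y) =
          (el m ((List.range D.nroots).map fun s => (E s, 0)) e 0).count y) := by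
  obtain ⟨_⟩ := nonempty_chev hD
  have h0 := centT_eq_bot_of (k := AlgebraicClosure F) h0 fun c h => by simpa using h
  have hA := (adjCov hD _).sc_of_centT h0
  let ι : D.group F →* D.group (AlgebraicClosure F) := groupMap D (algebraMap F (AlgebraicClosure F))
  have hι : Function.Injective ι := fun a b e => by
    have := congrArg (fun g : D.group (AlgebraicClosure F) =>
      ((g : GL D.Idx (AlgebraicClosure F)) : Matrix D.Idx D.Idx (AlgebraicClosure F))) e
    simp only [ι, H39.groupMap_coe] at this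
    exact Subtype.ext (Units.ext (Matrix.map_injective (algebraMap F (AlgebraicClosure F)).injective this))
  let ρ : Representation (AlgebraicClosure F) (D.group F) _ :=
    ((Matrix.toLinAlgEquiv' (n := D.Idx)).toMonoidHom.comp (Units.coeHom _)).comp ((adjCov hD _).θ.comp ι)
  have e1 : ∀ x (t : AlgebraicClosure F), LinearMap.det (t • (1 : Module.End _ _) - ρ x) =
      (adjCov hD _).chi (ι x) t := fun x t => by
    rw [Cov.chi, ← LinearMap.det_toLin', map_sub Matrix.toLin', map_smul Matrix.toLin', Matrix.toLin'_one]; rfl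
  have e0 : ∀ {m : ℕ}, m.Coprime p → (m : AlgebraicClosure F) ≠ 0 := fun h e =>
    absurd (h.symm.eq_one_of_dvd ((CharP.cast_eq_zero_iff _ p _).1 e)) (Fact.out : p.Prime).one_lt.ne'
  refine ⟨ρ, fun x y h => hι (Subtype.ext (Units.ext (Matrix.toLinAlgEquiv'.injective h))),
    fun m x hm hx ζ hζ => ?_⟩
  have hm0 : 0 < m := Nat.pos_of_ne_zero (by
    rintro rfl; exact (Fact.out : p.Prime).one_lt.ne' (by simpa using hm))
  have hζ' := hζ.isUnit_unit hm0.ne'
  obtain ⟨z, h1, h2, h3⟩ := Cov.exists_chi_alc hA p (adjCov_hasField hD _) (algClosure_alg _ p) hm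
    (s := ι x) (by rw [← map_pow, hx, map_one]) hζ'
  have h4 : ∀ s : Fin D.nroots, ∑ j ∈ range 8, T.vec s j *
      (if h : j < D.rank then (pr ((rs D).sp ⟨j, h⟩) z).toNat else 0 : ℕ) = pr s z := fun s => by
    simp only [← h8, sum_range, Fin.is_lt, dif_pos, Fin.eta, Int.toNat_of_nonneg (h1 _)]
    simp only [pr_apply, mul_sum]
    rw [sum_comm]
    refine sum_congr rfl fun i _ => ?_
    rw [hT.cartan_eq i.2 s.2, sum_range, mul_sum]
    exact sum_congr rfl fun j _ => by rw [rs_sp_val]; ring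
  refine ⟨_, fun s hs => (h4 ⟨s, hs⟩).trans_le (h2 _), fun E hE e y hy => dm_eq_count (e0 hm) (by
    rw [← map_pow, ← pow_mul, mul_comm, pow_mul, hx, one_pow, map_one]) hζ (lt_of_mem_el hm0 _ _ _) (fun t => ?_) hy⟩
  rw [e1, map_pow, h3, el, List.map_map, congrArg ((t - 1) ^ ·) h8]
  refine prod_exp hζ'.pow_eq_one _ _ (fun s => ?_) t
  simp only [Function.comp_apply, zero_mul, add_zero, Int.natCast_mod, Nat.cast_mul]
  exact (Int.mod_modEq _ _).trans ((h4 s ▸ hE s s.2).mul_left _)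

/-- values of the roots at a point of the alcove, with an offset -/
noncomputable def kO (o : ℕ) (a : List ℕ) (s : ℕ) : ℕ :=
  @Nat.rec (fun _ => ℕ) 0 (fun j t => Nat.add t
    (Nat.mul (Nat.add (fld E8.vecT 4 16 (Nat.add (Nat.mul 8 s) j)) o) (a.getD j 0))) 8

theorem kO_spec {m o : ℕ} (h : (m : ℤ) ∣ o + 8) (a : ℕ → ℕ) (s : ℕ) :
    (kO o [a 0, a 1, a 2, a 3, a 4, a 5, a 6, a 7] s : ℤ) ≡ ∑ j ∈ range 8, E8.vec s j * a j [ZMOD m] := by
  have : ∀ (F : ℕ → ℕ) (n : ℕ), @Nat.rec (fun _ => ℕ) 0 (fun j t => Nat.add t (F j)) n = ∑ j ∈ range n, F j :=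
    fun F n => by
      induction n with
      | zero => rfl
      | succ n ih => rw [sum_range_succ, ← ih]; rfl
  rw [kO, this]
  obtain ⟨c, hc⟩ := h
  refine (Int.modEq_iff_dvd.2 ⟨c * (a 0 + a 1 + a 2 + a 3 + a 4 + a 5 + a 6 + a 7), ?_⟩).symm
  simp only [E8.vec, fldI, Int.subNatNat_eq_coe, sum_range_succ, sum_range_zero, Nat.mul_eq, Nat.add_eq,
    List.getD_cons_zero, List.getD_cons_succ]
  push_cast
  linear_combination (a 0 + a 1 + a 2 + a 3 + a 4 + a 5 + a 6 + a 7 : ℤ) * hc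

theorem finrank_E8 (k : Type*) [Field k] : Module.finrank k (chevE8.Idx → k) = 248 := by
  rw [Module.finrank_fintype_fun_eq_card]
  decide +kernel

theorem exists_E8 {F : Type*} [Field F] [Finite F] (p : ℕ) [Fact p.Prime] [CharP F p] :
    ∃ ρ : Representation (AlgebraicClosure F) (chevE8.group F) (chevE8.Idx → AlgebraicClosure F),
    (∀ x, dm ⊤ (ρ x) 1 = 248 → x = 1) ∧
    ∀ m o : ℕ, m.Prime → p ≠ m → (m : ℤ) ∣ o + 8 → ∀ x, x ^ m = 1 → ∃ ζ, IsPrimitiveRoot ζ m ∧
      ∃ a b c d e f g h : ℕ, 2 * a + 3 * b + 4 * c + 6 * d + 5 * e + 4 * f + 3 * g + 2 * h ≤ m ∧ ∀ y < m,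
        dm ⊤ (ρ x) (ζ ^ y) = fl (encE m ((List.range 240).map fun s => (kO o [a, b, c, d, e, f, g, h] s, 0)) 1 0) y := by
  obtain ⟨ρ, h1, h3⟩ := exists_rep (F := F) p (D := chevE8) (by simp) rfl H64.hasInv_E8 E8.checked
  refine ⟨ρ, fun x hx => h1 ?_, fun m o hm hp ho x hx => ?_⟩
  · rw [dm, top_inf_eq, ← finrank_E8 (AlgebraicClosure F)] at hx
    have := Submodule.eq_top_of_finrank_eq hx
    rw [map_one]
    refine LinearMap.ext fun v => ?_
    have h2 : v ∈ Module.End.eigenspace (ρ x) 1 := this ▸ Submodule.mem_top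
    simpa [Module.End.mem_eigenspace_iff] using h2
  · have hc : m.Coprime p := (Nat.coprime_primes hm Fact.out).2 hp.symm
    have : NeZero (m : AlgebraicClosure F) := ⟨fun e =>
      absurd (hc.symm.eq_one_of_dvd ((CharP.cast_eq_zero_iff _ p _).1 e)) (Fact.out : p.Prime).one_lt.ne'⟩
    obtain ⟨ζ, hζ⟩ := HasEnoughRootsOfUnity.exists_primitiveRoot (AlgebraicClosure F) m
    obtain ⟨a, h6, h7⟩ := h3 m x hc hx ζ hζ
    replace h7 := h7 _ fun s _ => kO_spec ho a s
    have h8 := h6 239 (by decide)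
    have e : ∀ j < 8, E8.tab.vec 239 j = ([2, 3, 4, 6, 5, 4, 3, 2] : List ℤ).getD j 0 := by decide +kernel
    rw [sum_congr rfl fun j hj => by rw [e j (mem_range.1 hj)]] at h8
    simp only [sum_range_succ, sum_range_zero, List.getD_cons_zero, List.getD_cons_succ] at h8
    refine ⟨ζ, hζ, a 0, a 1, a 2, a 3, a 4, a 5, a 6, a 7, by omega, fun y hy => ?_⟩
    have h9 := h7 1 y hy
    rw [pow_one] at h9
    rw [h9, encE_eq, fl_enc _ (by simp [el])]
    rfl

end Cfsg.Agent.E8A
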