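import Cfsg.Agent.E8A.Defs
import Cfsg.Agent.E8A.Lie0
import Cfsg.Prelude.Def_LieChev

/-! Project E8A: fixed spaces of the elements of order `3` of `E₈(q)`. -/

set_option autoImplicit false

namespace Cfsg.Agent.E8A

open Module Cfsg.Agent.H37 Cfsg.Agent.H37.Ew Cfsg.Agent.H37.S2

theorem kac3 : (allLt 2 fun a => allLt 2 fun b => allLt 2 fun g => allLt 2 fun h =>
    bimp (Nat.ble (2 * a + 3 * b + 3 * g + 2 * h) 3)
      (decide (fl (encE 3 ((List.range 240).map fun s => (kO 1 [a, b, 0, 0, 0, 0, g, h] s, 0)) 1 0) 0 ∈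
        [248, 134, 92, 86, 80]))) = true := by decide +kernel

theorem exists_rho {F : Type*} [Field F] [Finite F] (p : ℕ) [Fact p.Prime] [CharP F p] (hp : p ≠ 3) :
    ∃ ρ : Representation (AlgebraicClosure F) (Cfsg.Lie.chevE8.group F)
      (Cfsg.Lie.chevE8.Idx → AlgebraicClosure F),
      finrank (AlgebraicClosure F) (Cfsg.Lie.chevE8.Idx → AlgebraicClosure F) = 248 ∧ Tr ρ := by
  obtain ⟨ρ, h1, h2⟩ := exists_E8 (F := F) p
  refine ⟨ρ, finrank_E8 _, fun x hx h0 => ?_⟩
  obtain ⟨ζ, -, a, b, c, d, e, f, g, h, h3, h4⟩ := h2 3 1 Nat.prime_three hp (by norm_num) x hx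
  obtain rfl : c = 0 := by omega
  obtain rfl : d = 0 := by omega
  obtain rfl : e = 0 := by omega
  obtain rfl : f = 0 := by omega
  have h5 := of_decide_eq_true (bimp_spec (allLt_spec (allLt_spec (allLt_spec (allLt_spec kac3 a (by omega))
    b (by omega)) g (by omega)) h (by omega)) (Nat.ble_eq ▸ by omega))
  have h6 := h4 0 (by norm_num)
  rw [pow_zero] at h6
  rw [← h6] at h5
  have h7 := mt (h1 x) h0
  rw [dm, top_inf_eq] at h5 h7
  simpa [h7] using h5

end Cfsg.Agent.E8A
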