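import Cfsg.Agent.E8A.Defs
import Cfsg.Agent.E8A.Lie0
import Cfsg.Prelude.Def_LieChev

/-! Project E8A: an element of order `17` of `E₈(q)` is not conjugate to its cube. -/

set_option autoImplicit false

namespace Cfsg.Agent.E8A

open Module Cfsg.Agent.H37 Cfsg.Agent.H37.Ew Cfsg.Agent.H37.S2

/-- the test at a point of the alcove -/
noncomputable def ok17 (a : List ℕ) : Bool :=
  frc (encE 17 ((List.range 240).map fun s => (kO 9 a s, 0)) 1 0) fun e =>
    bimp (allLt 17 fun y => Nat.beq (fl e y) (fl e (3 * y % 17))) (Nat.beq (fl e 0) 248)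

theorem kac17 : (allLt 3 fun d => allLt 4 fun e => bimp (Nat.ble (6 * d + 5 * e) 17) <|
    allLt 5 fun c => bimp (Nat.ble (6 * d + 5 * e + 4 * c) 17) <|
    allLt 5 fun f => bimp (Nat.ble (6 * d + 5 * e + 4 * c + 4 * f) 17) <|
    allLt 6 fun b => bimp (Nat.ble (6 * d + 5 * e + 4 * c + 4 * f + 3 * b) 17) <|
    allLt 6 fun g => bimp (Nat.ble (6 * d + 5 * e + 4 * c + 4 * f + 3 * b + 3 * g) 17) <|
    allLt 9 fun a => bimp (Nat.ble (6 * d + 5 * e + 4 * c + 4 * f + 3 * b + 3 * g + 2 * a) 17) <|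
    allLt 9 fun h => bimp (Nat.ble (6 * d + 5 * e + 4 * c + 4 * f + 3 * b + 3 * g + 2 * a + 2 * h) 17) <|
      ok17 [a, b, c, d, e, f, g, h]) = true := by decide +kernel

theorem no17 {F : Type*} [Field F] [Finite F] (p : ℕ) [Fact p.Prime] [CharP F p] (hp : p ≠ 17)
    (g n : Cfsg.Lie.chevE8.group F) (h : g ^ 17 = 1) (hn : n * g * n⁻¹ = g ^ 3) : g = 1 := by
  obtain ⟨ρ, h1, h2⟩ := exists_E8 (F := F) p
  obtain ⟨ζ, hζ, a, b, c, d, e, f, g', h', h3, h4⟩ := h2 17 9 (by norm_num) hp (by norm_num) g h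
  have h5 := bimp_spec (allLt_spec (bimp_spec (allLt_spec (bimp_spec (allLt_spec (bimp_spec (allLt_spec (bimp_spec
    (allLt_spec (bimp_spec (allLt_spec (bimp_spec (allLt_spec (allLt_spec kac17 d (by omega)) e (by omega))
    (Nat.ble_eq ▸ by omega)) c (by omega)) (Nat.ble_eq ▸ by omega)) f (by omega)) (Nat.ble_eq ▸ by omega))
    b (by omega)) (Nat.ble_eq ▸ by omega)) g' (by omega)) (Nat.ble_eq ▸ by omega)) a (by omega))
    (Nat.ble_eq ▸ by omega)) h' (by omega)) (Nat.ble_eq ▸ by omega)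
  rw [ok17, frc_eq] at h5
  have hg : g ^ 3 * n = n * g := by rw [← hn]; simp
  have h6 := Nat.eq_of_beq_eq_true (bimp_spec h5 (allLt_iff.2 fun y hy => Nat.beq_eq ▸ (by
    rw [← h4 y hy, ← h4 _ (Nat.mod_lt _ (by norm_num)), ← pow_eq_pow_mod _ hζ.pow_eq_one, mul_comm, pow_mul,
      ← dm_conj ρ hg (_ ^ 3), map_pow, dm_pow (l := 6) _
      (by rw [← pow_mul, ← map_pow, show 3 * 6 = 17 + 1 from rfl, pow_succ, h]; simp)
      (by rw [← pow_mul, ← pow_mul, mul_comm y, pow_mul, show 3 * 6 = 17 + 1 from rfl, pow_succ,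
        hζ.pow_eq_one]; simp)])))
  rw [← h4 0 (by norm_num), pow_zero] at h6
  exact h1 g h6

end Cfsg.Agent.E8A
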