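import Cfsg.Agent.E8A.Defs
import Cfsg.Prelude.Def_LieChev
import Cfsg.Agent.H13.ChevFus
import Cfsg.Agent.H39.PoinData
import Cfsg.Agent.H91.SylIn

set_option autoImplicit false

namespace Cfsg.Agent.E8A

open Module

namespace Lie3

open Cfsg.Agent.H13 Cfsg.Lie Cfsg.Agent.H37 Cfsg.Agent.H38 Subgroup

theorem relIndex_le {X : Type*} [CommGroup X] [Finite X] {B B₀ : Subgroup X} (n : ℕ) (h : ∀ b ∈ B, b ^ n ∈ B₀) :
    B₀.relIndex B ≤ Nat.card (powMonoidHom n : X →* X).ker := by
  have h1 : (powMonoidHom n : B →* B).range ≤ B₀.subgroupOf B := by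
    rintro _ ⟨b, rfl⟩
    exact h b b.2
  refine (index_antitone h1).trans ?_
  rw [index_range]
  exact Nat.card_le_card_of_injective (fun b => ⟨b.1.1, congrArg Subtype.val b.2⟩)
    fun a b e => Subtype.ext (Subtype.ext (congrArg Subtype.val e :))

theorem sr_of {G H X : Type*} [Group G] [Finite G] [Group H] [CommGroup X] [Finite X] (j : H →* G)
    (hj : Function.Injective j) (τ : X →* G) (hX : Nat.card (powMonoidHom 3 : X →* X).ker ≤ 3 ^ 8)
    (hi : ¬ 3 ^ 6 ∣ τ.range.index) : SR H := by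
  intro R R₀ hR _ _ h3
  have : Fact (Nat.Prime 3) := ⟨Nat.prime_three⟩
  obtain ⟨S, hS⟩ := H91.exists_sylIn (p := 3) τ.range
  obtain ⟨P, hP, hSP⟩ := H91.exists_sylIn_ge hS.isPGroup (le_top (a := S))
  obtain ⟨a, -, ha⟩ := hP.exists_conj_mem (hR.map j) le_top
  let j' : H →* G := (MulAut.conj a).toMonoidHom.comp j
  have hj' : Function.Injective j' := (MulAut.conj a).injective.comp hj
  have hRP : R.map j' ≤ P := by
    rintro _ ⟨x, hx, rfl⟩
    exact ha _ ⟨x, hx, rfl⟩
  have h1 : S.relIndex P ≤ 3 ^ 5 := by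
    obtain ⟨k, hk⟩ := hP.isPGroup.index (S.subgroupOf P)
    have e : S.relIndex P ∣ S.relIndex τ.range * τ.range.index := by
      rw [relIndex_mul_index hS.le, ← relIndex_mul_index hSP]
      exact Dvd.intro _ rfl
    change S.relIndex P = _ at hk
    rw [hk] at e ⊢
    have := (((Nat.Prime.coprime_iff_not_dvd Nat.prime_three).2 hS.not_dvd).pow_left k).dvd_of_dvd_mul_left e
    refine Nat.pow_le_pow_right (by norm_num) ?_
    by_contra hk'
    exact hi ((pow_dvd_pow 3 (by omega)).trans this)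
  have h2 : τ.range.relIndex (R.map j') ≤ 3 ^ 5 :=
    ((relIndex_le_of_le_left hS.le index_ne_zero_of_finite).trans
      (relIndex_le_of_le_right hRP index_ne_zero_of_finite)).trans h1
  have h4 : (R₀.map j').relIndex (τ.range ⊓ R.map j') ≤ 3 ^ 8 := by
    rw [← map_comap_eq, ← relIndex_comap]
    refine (relIndex_le 3 fun b hb => ?_).trans hX
    obtain ⟨x, hx, e⟩ := hb
    exact ⟨x ^ 3, h3 x hx, by rw [map_pow, map_pow, e]⟩
  rw [← relIndex_map_map_of_injective _ _ hj']
  refine (relIndex_le_of_le_left (inf_le_left (b := τ.range)) index_ne_zero_of_finite).trans ?_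
  rw [← relIndex_inf_mul_relIndex]
  exact (Nat.mul_le_mul h4 h2).trans (by norm_num)

theorem card_ker {K : Type*} [Field K] [Finite K] (n m : ℕ) [NeZero n] :
    Nat.card (powMonoidHom n : (Fin m → Kˣ) →* (Fin m → Kˣ)).ker ≤ n ^ m := by
  refine (Nat.card_le_card_of_injective (β := Fin m → rootsOfUnity n K)
    (fun x i => ⟨x.1 i, congrFun x.2 i⟩) fun a b e =>
      Subtype.ext (funext fun i => congrArg Subtype.val (congrFun e i))).trans ?_
  rw [Nat.card_fun, Nat.card_eq_fintype_card (α := Fin m), Fintype.card_fin]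
  exact Nat.pow_le_pow_left (card_rootsOfUnity K n) m

theorem card_ext {F : Type*} [Field F] [Finite F] (p : ℕ) [Fact p.Prime] [CharP F p] (n : ℕ) [NeZero n] {l : ℕ}
    (hp : p.Coprime l) (h : l.totient = n) : Nat.card (FiniteField.Extension F p n) ≡ 1 [MOD l] := by
  obtain ⟨k, -, hk⟩ := exists_card_eq_pow F p
  rw [FiniteField.natCard_extension, hk, ← h]
  exact Nat.ModEq.pow_totient (hp.pow_left k)

theorem hD : IsChev chevE8 := by simp

theorem not_dvd [Chev chevE8] {K : Type*} [Field K] [Finite K] {l : ℕ} (hl : ¬ l ∣ 696729600)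
    (hq : Nat.card K ≡ 1 [MOD l]) : ¬ l ∣ (adjCov hD K).X.H.index := by
  rw [index_adj_H, H39.poin_E8]
  intro h
  have := (hq.pow (chevE8.nroots / 2)).mul ((((((((qInt_modEq hq 2).mul (qInt_modEq hq 8)).mul
    (qInt_modEq hq 12)).mul (qInt_modEq hq 14)).mul (qInt_modEq hq 18)).mul (qInt_modEq hq 20)).mul
    (qInt_modEq hq 24)).mul (qInt_modEq hq 30))
  rw [one_pow] at this
  exact hl ((this.dvd_iff dvd_rfl).1 h)

end Lie3

open Lie3 Cfsg.Agent.H13 Cfsg.Lie Cfsg.Agent.H37 Cfsg.Agent.H38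

theorem sr_E8 {F : Type*} [Field F] [Finite F] (p : ℕ) [Fact p.Prime] [CharP F p] (hp : p ≠ 3) :
    SR (Cfsg.Lie.chevE8.group F) := by
  obtain ⟨_⟩ := nonempty_chev hD
  have hq := card_ext (F := F) p 486 (l := 3 ^ 6)
    (((Nat.coprime_primes Fact.out Nat.prime_three).2 hp).pow_right 6) (by decide +kernel)
  refine sr_of (H39.groupMap chevE8 (algebraMap F (FiniteField.Extension F p 486))) (groupMap_injective _)
    (adjCov hD _).T (card_ker 3 _) ?_
  rw [H39.torus_range]
  exact not_dvd (by norm_num) hq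

theorem comm17 {F : Type*} [Field F] [Finite F] (p : ℕ) [Fact p.Prime] [CharP F p] (hp : p ≠ 17)
    (P : Subgroup (Cfsg.Lie.chevE8.group F)) (hP : IsPGroup 17 P) : ∀ x ∈ P, ∀ y ∈ P, x * y = y * x := by
  obtain ⟨_⟩ := nonempty_chev hD
  have h17 : Fact (Nat.Prime 17) := ⟨by norm_num⟩
  have hq := card_ext (F := F) p 16 (l := 17) ((Nat.coprime_primes Fact.out h17.out).2 hp) (by decide +kernel)
  let j := H39.groupMap chevE8 (algebraMap F (FiniteField.Extension F p 16))
  obtain ⟨c, -, hc⟩ := exists_conj_le (not_dvd (by norm_num) hq) le_top (hP.map j) le_top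
  intro x hx y hy
  have := (adjCov hD _).H_comm (hc _ ⟨x, hx, rfl⟩) (hc _ ⟨y, hy, rfl⟩)
  rw [conj_mul, conj_mul, ← map_mul, ← map_mul] at this
  exact groupMap_injective _ (by simpa using this)

end Cfsg.Agent.E8A
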