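import Cfsg.Agent.E8A.Defs

set_option autoImplicit false

namespace Cfsg.Agent.E8A

open Module

variable {H : Type*} [Group H] {k V : Type*} [Field k] [AddCommGroup V] [Module k V]

theorem exists_mn [Finite H] (φ : H →* A18) (h : Function.Surjective φ) :
    ∃ L : Subgroup H, Nonempty (Mn L) := by
  obtain ⟨L, hL, hmin⟩ := (wellFounded_lt (α := Subgroup H)).has_min {L | L.map φ = ⊤}
    ⟨⊤, Subgroup.map_top_of_surjective φ h⟩
  refine ⟨L, ⟨φ.comp L.subtype, fun y => ?_, fun L' h' => ?_⟩⟩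
  · obtain ⟨x, hx, e⟩ : y ∈ L.map φ := hL.ge (Subgroup.mem_top y)
    exact ⟨⟨x, hx⟩, e⟩
  · have e : L'.map L.subtype = L := by
      by_contra hne
      exact hmin (L'.map L.subtype) (by rw [Set.mem_setOf_eq, Subgroup.map_map]; exact h')
        (lt_of_le_of_ne (Subgroup.map_subtype_le L') hne)
    refine top_unique fun x _ => ?_
    obtain ⟨y, hy, e2⟩ : (x : H) ∈ L'.map L.subtype := e.ge x.2
    rwa [← (Subtype.ext e2 : y = x)]

theorem Mn.nil [Finite H] (M : Mn H) : Group.IsNilpotent M.φ.ker := by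
  have h : M.φ.ker ≤ frattini H := by
    refine le_iInf₂ fun X hX => ?_
    by_contra hn
    have e : X ⊔ M.φ.ker = ⊤ := hX.2 _ (left_lt_sup.2 hn)
    refine hX.1 (M.min X ?_)
    rw [← Subgroup.map_top_of_surjective M.φ M.surj, ← e, Subgroup.map_sup,
      (Subgroup.map_eq_bot_iff _).2 le_rfl, sup_bot_eq]
  haveI := frattini_nilpotent (G := H)
  exact Group.nilpotent_of_mulEquiv (Subgroup.subgroupOfEquivOfLe h)

theorem Mn.top (M : Mn H) {N : Subgroup H} [N.Normal] (h : ¬ N ≤ M.φ.ker) : N = ⊤ := by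
  haveI : IsSimpleGroup A18 := alternatingGroup.isSimpleGroup (by simp)
  exact M.min N (((inferInstance : N.Normal).map M.φ M.surj).eq_bot_or_eq_top.resolve_left
    fun e => h ((Subgroup.map_eq_bot_iff _).1 e))

theorem Mn.perfect (M : Mn H) : commutator H = ⊤ := by
  refine M.top fun h => ?_
  obtain ⟨a, ha⟩ := M.surj ⟨tc 0 1 2, Equiv.Perm.mem_alternatingGroup.2 (by decide)⟩
  obtain ⟨b, hb⟩ := M.surj ⟨tc 0 1 3, Equiv.Perm.mem_alternatingGroup.2 (by decide)⟩
  have k := h (Subgroup.commutator_mem_commutator (Subgroup.mem_top a) (Subgroup.mem_top b))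
  rw [MonoidHom.mem_ker, map_commutatorElement, commutatorElement_eq_one_iff_mul_comm, ha, hb] at k
  have k2 : tc 0 1 2 * tc 0 1 3 = tc 0 1 3 * tc 0 1 2 := congrArg Subtype.val k
  exact absurd k2 (by decide)

theorem Mn.hom_one (M : Mn H) {A : Type*} [CommGroup A] (f : H →* A) (h : H) : f h = 1 :=
  Abelianization.commutator_subset_ker f (M.perfect.ge (Subgroup.mem_top h))

end Cfsg.Agent.E8A
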