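import Cfsg.Agent.E8A.Defs
import Cfsg.Agent.E8A.Min
import Cfsg.Agent.E8A.Alt

set_option autoImplicit false
set_option linter.unusedSectionVars false
set_option linter.unusedVariables false

namespace Cfsg.Agent.E8A

open Module

variable {H : Type*} [Group H] {k V : Type*} [Field k] [AddCommGroup V] [Module k V]

theorem Rel.one {R : Type*} [Ring R] {a b s : R} (ha : Qd a) (hb : Qd b) (h : a * b * (a * b) = s) :
    a * b = s * ((b + 1) * (a + 1)) := by
  unfold Qd at ha hb
  linear_combination (norm := noncomm_ring) h * ((b + 1) * (a + 1)) - a * b * a * hb * (a + 1)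
    + a * b * ha

theorem Rel.two {R : Type*} [Ring R] {a b s : R} (hb : Qd b) (h : a * b * (a * b) = s)
    (hs : b * s = s * b) : b * a * (b * a) = s := by
  unfold Qd at hb
  linear_combination (norm := noncomm_ring) -(b * h * (b + 1)) + b * a * b * a * hb - hs * (b + 1)
    - s * hb

theorem rel [Nontrivial V] (M : Mn H) (L : Lf M) (ρ : Representation k H V) (hk : (3 : k) ≠ 0)
    (hq : Qd (ρ (L.c 0))) (hs : ∀ x ∈ M.φ.ker, ∃ s : k, ρ x = s • (1 : End k V)) :
    ∃ a : Fin 16 → End k V, (∀ i, Qd (a i)) ∧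
      ∀ i j, i ≠ j → a i * a j + a j * a i + a i + a j + 1 = 0 := by
  obtain ⟨a, g, h1, h2⟩ := exists_a
  choose u hu using fun i => M.surj (g i)
  have hd : ∀ i, M.φ (u i * L.c 0 * (u i)⁻¹) = a i := fun i => by
    rw [map_mul, map_mul, map_inv, hu, L.map, h1]
  have hq' : ∀ i, Qd (ρ (u i * L.c 0 * (u i)⁻¹)) := fun i => by
    have e1 : ρ (u i) * ρ (u i)⁻¹ = 1 := by rw [← map_mul, mul_inv_cancel, map_one]
    have e2 : ρ (u i)⁻¹ * ρ (u i) = 1 := by rw [← map_mul, inv_mul_cancel, map_one]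
    unfold Qd at hq ⊢
    rw [map_mul, map_mul]
    linear_combination (norm := noncomm_ring) ρ (u i) * hq * ρ (u i)⁻¹
      + ρ (u i) * ρ (L.c 0) * e2 * ρ (L.c 0) * ρ (u i)⁻¹ - e1
  refine ⟨fun i => ρ (u i * L.c 0 * (u i)⁻¹), hq', fun i j hij => ?_⟩
  obtain ⟨h3, h4⟩ := h2 i j hij
  have qa := hq' i
  have qb := hq' j
  rw [← hd i, ← hd j] at h3 h4
  beta_reduce
  generalize u i * L.c 0 * (u i)⁻¹ = x at *
  generalize u j * L.c 0 * (u j)⁻¹ = y at *
  obtain ⟨s, e⟩ := hs (x * y * (x * y)) (by rw [MonoidHom.mem_ker, map_mul, map_mul, ← sq, h3])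
  rw [map_mul, map_mul] at e
  have e1 := Rel.one qa qb e
  have e2 := Rel.one qb qa (Rel.two qb e (by rw [mul_smul_comm, smul_mul_assoc, mul_one, one_mul]))
  rw [smul_mul_assoc, one_mul] at e1 e2
  by_cases c : 1 + s = 0
  · rw [eq_neg_of_add_eq_zero_right c, neg_smul, one_smul] at e1
    linear_combination (norm := noncomm_ring) e1
  exfalso
  have e3 : (1 + s) • (ρ x * ρ y - ρ y * ρ x) = 0 := by
    have e4 : ρ x * ρ y - ρ y * ρ x = s • (ρ y * ρ x - ρ x * ρ y) := by
      conv_lhs => rw [e1, e2, ← smul_sub]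
      congr 1
      noncomm_ring
    rw [add_smul, one_smul]
    conv_lhs => arg 1; rw [e4]
    rw [← smul_add, sub_add_sub_cancel, sub_self, smul_zero]
  have e5 := sub_eq_zero.1 ((smul_eq_zero.1 e3).resolve_left c)
  have e6 : (ρ : H →* End k V).ker = ⊤ := M.top fun hle => h4 (by
    have : x * y * (y * x)⁻¹ ∈ (ρ : H →* End k V).ker := by
      rw [MonoidHom.mem_ker, map_mul, map_mul, e5, ← map_mul, ← map_mul, mul_inv_cancel, map_one]
    have := hle this
    rw [MonoidHom.mem_ker, map_mul, map_inv, mul_inv_eq_one, map_mul, map_mul] at this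
    exact this)
  have e7 : ρ x = 1 := e6.ge (Subgroup.mem_top x)
  obtain ⟨v, hv⟩ := exists_ne (0 : V)
  unfold Qd at qa
  rw [e7] at qa
  have e8 := congrArg (fun f : End k V => f v) qa
  simp only [mul_one, LinearMap.add_apply, End.one_apply, LinearMap.zero_apply] at e8
  refine hv ((smul_eq_zero.1 (show (3 : k) • v = 0 from ?_)).resolve_left hk)
  rw [← e8, show (3 : k) = 1 + 1 + 1 by norm_num, add_smul, add_smul, one_smul]

end Cfsg.Agent.E8A
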