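import Cfsg.Agent.E8A.Min
import Cfsg.Agent.E8A.Ind

set_option autoImplicit false

namespace Cfsg.Agent.E8A

open Module

variable {H : Type*} [Group H] {k V : Type*} [Field k] [AddCommGroup V] [Module k V]

/-- commuting operators have a common eigenvector -/
theorem ScalA_eig [IsAlgClosed k] [FiniteDimensional k V] [Nontrivial V] {R : Type*}
    (T : R → End k V) (hT : ∀ x y, Commute (T x) (T y)) :
    ∃ v : V, v ≠ 0 ∧ ∀ y, ∃ s : k, T y v = s • v := by
  obtain ⟨W, ⟨W0, hW⟩, hm⟩ := (wellFounded_lt (α := Submodule k V)).has_min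
    {W | W ≠ ⊥ ∧ ∀ y, ∀ w ∈ W, T y w ∈ W} ⟨⊤, top_ne_bot, fun _ _ _ => trivial⟩
  obtain ⟨v, hv, v0⟩ := (Submodule.ne_bot_iff _).1 W0
  refine ⟨v, v0, fun y => ?_⟩
  have := Submodule.nontrivial_iff_ne_bot.2 W0
  obtain ⟨s, hs⟩ := End.exists_eigenvalue ((T y).restrict (hW y))
  obtain ⟨w, hw⟩ := hs.exists_hasEigenvector
  have e : W ⊓ End.eigenspace (T y) s = W := by
    refine inf_le_left.eq_of_not_lt (hm _ ⟨(Submodule.ne_bot_iff _).2 ⟨w, ⟨w.2,
      End.mem_eigenspace_iff.2 (congrArg Subtype.val hw.apply_eq_smul)⟩,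
      fun e => hw.2 (Subtype.ext e)⟩, fun z u hu => ⟨hW z u hu.1, End.mem_eigenspace_iff.2 ?_⟩⟩)
    rw [← End.mul_apply, (hT y z).eq, End.mul_apply, End.mem_eigenspace_iff.1 hu.2, map_smul]
  exact ⟨s, End.mem_eigenspace_iff.1 (e.ge hv).2⟩

theorem scalA [IsAlgClosed k] [FiniteDimensional k V] (M : Mn H) (ρ : Representation k H V)
    (hρ : Irr ρ) {c : H} (hc : M.φ c ≠ 1) (h3 : c ^ 3 = 1) (hq : Qd (ρ c)) (N : Subgroup H) [N.Normal]
    (hN : ∀ x ∈ N, ∀ y ∈ N, Commute (ρ x) (ρ y)) : ∀ x ∈ N, ∃ s : k, ρ x = s • (1 : End k V) := by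
  have := hρ.1
  have nn : N.Normal := inferInstance
  obtain ⟨v, v0, hv⟩ := ScalA_eig (fun y : N => ρ y) fun x y => hN _ x.2 _ y.2
  have : ∀ y : H, ∃ s : k, y ∈ N → ρ y v = s • v := fun y => by
    by_cases h : y ∈ N
    · obtain ⟨s, hs⟩ := hv ⟨y, h⟩
      exact ⟨s, fun _ => hs⟩
    · exact ⟨0, fun h' => absurd h' h⟩
  choose χ hχ using this
  have mv : ∀ (g y : H) (w : V), ρ y (ρ g w) = ρ g (ρ (g⁻¹ * y * g) w) := fun g y w => by
    rw [← End.mul_apply, ← End.mul_apply, ← map_mul, ← map_mul]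
    congr 2; group
  let S : Subgroup H :=
    { carrier := {g | ∀ y ∈ N, χ (g⁻¹ * y * g) = χ y}
      one_mem' := fun y _ => by simp
      mul_mem' := fun {a b} ha hb y hy => by
        rw [← ha y hy, ← hb _ (nn.conj_mem' y hy a)]
        congr 1; group
      inv_mem' := fun {a} ha y hy => by
        rw [← ha _ (nn.conj_mem' y hy a⁻¹)]
        congr 1; group }
  have hS : S = ⊤ := by
    refine top_le_iff.1 ((M.top (N := Subgroup.normalClosure {c}) fun h =>
      hc (h (Subgroup.subset_normalClosure rfl))).ge.trans ((Subgroup.closure_le _).2 fun d hd => ?_))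
    obtain ⟨c', e', hd'⟩ := Group.mem_conjugatesOfSet_iff.1 hd
    obtain ⟨g, hg⟩ := isConj_iff.1 hd'
    rw [show c' = c from e'] at hg
    have d3 : d ^ 2 = d⁻¹ := eq_inv_of_mul_eq_one_left (by
      rw [← pow_succ, ← hg, conj_pow, h3]; group)
    by_contra hn
    have li := indep (fun y : N => ρ y) (fun i : Fin 3 => ρ (d ^ (i : ℕ)) v) (fun i e => v0 (by
      have := congrArg (ρ (d ^ (i : ℕ))⁻¹) e
      rwa [← End.mul_apply, ← map_mul, inv_mul_cancel, map_one, map_zero] at this))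
      (fun i y => χ ((d ^ (i : ℕ))⁻¹ * y * d ^ (i : ℕ))) (fun i j e => by
        have m : (d ^ (i : ℕ))⁻¹ * d ^ (j : ℕ) ∈ S := fun y hy => by
          have := congrFun e ⟨_, nn.conj_mem y hy (d ^ (i : ℕ))⟩
          dsimp only at this
          convert this.symm using 2 <;> group
        have i1 : d⁻¹ ∉ S := fun h => hn (S.inv_mem_iff.1 h)
        have i2 : d * d ∉ S := fun h => i1 (by rwa [← d3, pow_two])
        have i3 : d⁻¹ * d⁻¹ ∉ S := fun h => i2 (by rwa [← mul_inv_rev, inv_mem_iff] at h)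
        fin_cases i <;> fin_cases j <;> simp_all)
      fun i y => by rw [mv, hχ _ (nn.conj_mem' _ y.2 _), map_smul]
    have := Fintype.linearIndependent_iff.1 li (fun _ => 1) (by
      have e : ρ g * (ρ c * ρ c + ρ c + 1) * ρ g⁻¹ = ρ (d ^ 2) + ρ d + 1 := by
        simp only [mul_add, add_mul, mul_one, ← map_mul, mul_inv_cancel, map_one, hg]
        rw [← hg, pow_two]
        congr 3; group
      rw [show ρ c * ρ c + ρ c + 1 = 0 from hq, mul_zero, zero_mul] at e
      have := LinearMap.congr_fun e v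
      simp only [LinearMap.zero_apply, LinearMap.add_apply, End.one_apply] at this
      simp only [Fin.sum_univ_three, one_smul, Fin.val_zero, Fin.val_one, Fin.val_two, pow_zero,
        pow_one, map_one, End.one_apply]
      rw [this]; abel) 0
    exact one_ne_zero this
  let W : Submodule k V :=
    { carrier := {w | ∀ y ∈ N, ρ y w = χ y • w}
      zero_mem' := fun y _ => by simp
      add_mem' := fun ha hb y hy => by rw [map_add, ha y hy, hb y hy, smul_add]
      smul_mem' := fun a w hw y hy => by rw [map_smul, hw y hy, smul_comm] }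
  have hW := (hρ.2 W fun g w hw y hy => by
    rw [mv, hw _ (nn.conj_mem' y hy g), map_smul, (hS.ge trivial : g ∈ S) y hy]).resolve_left
    fun e => v0 ((Submodule.eq_bot_iff _).1 e v hχ)
  exact fun x hx => ⟨χ x, LinearMap.ext fun w => (hW.ge trivial : w ∈ W) x hx⟩

end Cfsg.Agent.E8A
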