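import Cfsg.Agent.E8A.Min
import Cfsg.Agent.E8A.Act
import Cfsg.Agent.E8A.Ind
import Cfsg.Agent.E8A.ScalA

set_option autoImplicit false

namespace Cfsg.Agent.E8A

open Module

variable {H : Type*} [Group H] {k V : Type*} [Field k] [AddCommGroup V] [Module k V]

namespace Scal

open Subgroup

variable {Γ : Type*} [Group Γ]

/-- the elements whose image commutes with the image of `R` -/
def Cz (θ : H →* Γ) (R : Subgroup H) : Subgroup H where
  carrier := {x | ∀ g ∈ R, Commute (θ g) (θ x)}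
  one_mem' := fun g _ => by rw [map_one]; exact Commute.one_right _
  mul_mem' := fun hx hy g hg => by rw [map_mul]; exact (hx g hg).mul_right (hy g hg)
  inv_mem' := fun hx g hg => by rw [map_inv]; exact (hx g hg).inv_right

instance (θ : H →* Γ) (R : Subgroup H) [hR : R.Normal] : (Cz θ R).Normal := ⟨fun x hx h g hg => by
  have := (hx _ (hR.conj_mem' g hg h)).map (MulAut.conj (θ h))
  simpa [mul_assoc] using this⟩

/-- the preimage of the elements of order dividing `r` in the centre of the image of `K` -/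
def Rz (θ : H →* Γ) (K : Subgroup H) (r : ℕ) : Subgroup H where
  carrier := {x | x ∈ K ⊓ Cz θ K ∧ θ x ^ r = 1}
  one_mem' := ⟨one_mem _, by rw [map_one, one_pow]⟩
  mul_mem' := fun hx hy => ⟨mul_mem hx.1 hy.1, by
    rw [map_mul, (hy.1.2 _ hx.1.1).mul_pow, hx.2, hy.2, one_mul]⟩
  inv_mem' := fun hx => ⟨inv_mem hx.1, by rw [map_inv, inv_pow, hx.2, inv_one]⟩

instance (θ : H →* Γ) (K : Subgroup H) [K.Normal] (r : ℕ) : (Rz θ K r).Normal := ⟨fun x hx h =>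
  ⟨Normal.conj_mem inferInstance x hx.1 h, by
    rw [map_mul, map_mul, map_inv, conj_pow, hx.2, mul_one, mul_inv_cancel]⟩⟩

theorem exists_x [Finite H] {K Z : Subgroup H} [Z.Normal] (hK : Group.IsNilpotent K) (h : ¬ K ≤ Z) :
    ∃ r : ℕ, r.Prime ∧ ∃ x ∈ Rz (QuotientGroup.mk' Z) K r, x ∉ Z := by
  let π := (QuotientGroup.mk' Z).comp K.subtype
  haveI : Group.IsNilpotent π.range := nilpotent_of_surjective _ π.rangeRestrict_surjective
  haveI : Nontrivial π.range := by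
    obtain ⟨x, hx, xZ⟩ := SetLike.not_le_iff_exists.1 h
    exact ⟨⟨⟨_, ⟨x, hx⟩, rfl⟩, 1, fun e => xZ ((QuotientGroup.eq_one_iff x).1 (congrArg Subtype.val e))⟩⟩
  obtain ⟨r, hr, hd⟩ := Nat.exists_prime_and_dvd
    (fun e => Group.IsNilpotent.center_ne_bot π.range (card_eq_one.1 e))
  haveI := Fact.mk hr
  obtain ⟨⟨⟨_, x, rfl⟩, hx⟩, e⟩ := exists_prime_orderOf_dvd_card' r hd
  rw [← orderOf_coe, ← orderOf_coe] at e
  refine ⟨r, hr, x, ⟨⟨x.2, fun g hg => ?_⟩, ?_⟩, fun h => hr.ne_one ?_⟩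
  · exact congrArg Subtype.val (mem_center_iff.1 hx ⟨_, ⟨g, hg⟩, rfl⟩)
  · rw [← e]
    exact pow_orderOf_eq_one (π x)
  · rw [← e, orderOf_eq_one_iff]
    exact (QuotientGroup.eq_one_iff (x : H)).2 h

theorem comm_mem {Z : Subgroup H} [Z.Normal] {x y : H}
    (h : Commute (QuotientGroup.mk' Z x) (QuotientGroup.mk' Z y)) : x * y * x⁻¹ * y⁻¹ ∈ Z := by
  rw [← QuotientGroup.eq_one_iff (N := Z), ← QuotientGroup.mk'_apply, map_mul, map_mul, map_mul, h.eq,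
    map_inv, map_inv]
  group

theorem comm_all (M : Mn H) (θ : H →* Γ) {x : H} (h : ∀ g, θ (g * x * g⁻¹ * x⁻¹) ∈ center Γ) (g : H) :
    Commute (θ g) (θ x) := by
  letI : CommGroup (center Γ) := { (inferInstance : Group (center Γ)) with mul_comm := mul_comm' }
  have := M.hom_one (MonoidHom.mk' (fun g => (⟨_, h g⟩ : center Γ)) fun a b => Subtype.ext (by
    have e := mem_center_iff.1 (h b)
    change θ (a * b * x * (a * b)⁻¹ * x⁻¹) = θ (a * x * a⁻¹ * x⁻¹) * θ (b * x * b⁻¹ * x⁻¹)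
    rw [e, show a * b * x * (a * b)⁻¹ * x⁻¹ = a * (b * x * b⁻¹ * x⁻¹) * (x * a⁻¹ * x⁻¹) by group,
      map_mul, map_mul θ a, e, mul_assoc, ← map_mul]
    simp only [mul_assoc])) g
  have e : θ (g * x * g⁻¹ * x⁻¹) = 1 := congrArg Subtype.val this
  rw [map_mul, map_mul, map_mul, map_inv, map_inv, mul_inv_eq_one, mul_inv_eq_iff_eq_mul] at e
  exact e

end Scal

open Scal Subgroup in
theorem scal [Finite H] [IsAlgClosed k] [FiniteDimensional k V] (M : Mn H) (ρ : Representation k H V)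
    (hρ : Irr ρ) {c : H} (hc : M.φ c ≠ 1) (h3 : c ^ 3 = 1) (hq : Qd (ρ c)) (hd : finrank k V < 256) :
    ∀ x ∈ M.φ.ker, ∃ s : k, ρ x = s • (1 : End k V) := by
  let θ : H →* (End k V)ˣ := MonoidHom.toHomUnits ρ
  have sc : ∀ (N : Subgroup H) [N.Normal], N ≤ Cz θ N → ∀ x ∈ N, ∃ s : k, ρ x = s • (1 : End k V) :=
    fun N _ h => scalA M ρ hρ hc h3 hq N fun x hx y hy => congrArg Units.val (h hy x hx).eq
  have ce : ∀ (x : H) (s : k), ρ x = s • (1 : End k V) → θ x ∈ center (End k V)ˣ := fun x s e =>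
    mem_center_iff.2 fun g => Units.ext (by
      change (g : End k V) * ρ x = ρ x * g
      rw [e, mul_smul_comm, smul_mul_assoc, mul_one, one_mul])
  have hC := sc (Cz θ ⊤) fun x hx g _ => hx g trivial
  obtain ⟨Z, hZ⟩ : ∃ Z, Z = M.φ.ker ⊓ Cz θ ⊤ := ⟨_, rfl⟩
  haveI : Z.Normal := hZ ▸ inferInstance
  have ZK : Z ≤ M.φ.ker := hZ ▸ inf_le_left
  have ZC : Z ≤ Cz θ ⊤ := hZ ▸ inf_le_right
  have toZ : ∀ x ∈ M.φ.ker, x ∈ Cz θ ⊤ → x ∈ Z := fun x h1 h2 => hZ ▸ ⟨h1, h2⟩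
  suffices h : M.φ.ker ≤ Z from fun x hx => hC x (ZC (h hx))
  by_contra hn
  obtain ⟨r, hr, x, hx, xZ⟩ := exists_x M.nil hn
  obtain ⟨R, hR⟩ : ∃ R, R = Rz (QuotientGroup.mk' Z) M.φ.ker r := ⟨_, rfl⟩
  haveI : R.Normal := hR ▸ inferInstance
  have RK : R ≤ M.φ.ker := hR ▸ fun x hx => hx.1.1
  have a1 : ∀ g ∈ M.φ.ker, ∀ x ∈ R, g * x * g⁻¹ * x⁻¹ ∈ Z := hR ▸ fun g hg x hx => comm_mem (hx.1.2 g hg)
  have a2 : ∀ x ∈ R, x ^ r ∈ Z := hR ▸ fun x hx => (QuotientGroup.eq_one_iff _).1 hx.2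
  have a3 : Z ≤ R := hR ▸ fun z hz => by
    have e : QuotientGroup.mk' Z z = 1 := (QuotientGroup.eq_one_iff _).2 hz
    exact ⟨⟨ZK hz, fun g _ => e ▸ Commute.one_right _⟩, by rw [e, one_pow]⟩
  rw [← hR] at hx
  have a4 : ∀ x ∈ R, x ∈ Cz θ R → x ∈ Z := fun x h1 h2 => by
    obtain ⟨s, e⟩ := sc (R ⊓ Cz θ R) (fun x hx g hg => hx.2 g hg.1) x ⟨h1, h2⟩
    exact toZ x (RK h1) fun g _ => mem_center_iff.1 (ce x s e) _
  choose! σ hσ using hC
  haveI := hρ.1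
  letI := Fintype.ofFinite (R ⧸ Z.subgroupOf R)
  have a5 := (indep (fun y : R => (LinearMap.mulLeft k (ρ y)).comp (LinearMap.mulRight k (ρ (y : H)⁻¹)))
    (fun i : R ⧸ Z.subgroupOf R => ρ (i.out : R)) (fun i => (θ (i.out : R)).ne_zero)
    (fun i y => σ (y * (i.out : R) * (y : H)⁻¹ * ((i.out : R) : H)⁻¹)) (fun i j e => ?_)
    fun i y => ?_).fintype_card_le_finrank
  · rw [finrank_linearMap, ← Nat.card_eq_fintype_card] at a5
    have a6 : Z.relIndex R < r ^ 16 := by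
      refine (a5.trans_lt (Nat.mul_lt_mul'' hd hd)).trans_le ?_
      exact Nat.pow_le_pow_left hr.two_le 16
    have a7 := act_triv M hr a3 a1 (fun x hx => a1 x (RK hx)) a2 a6
    exact xZ (toZ x (RK hx) fun g _ => comm_all M θ (fun g => ce _ _ (hσ _ (ZC (a7 g x hx)))) g)
  · rw [← QuotientGroup.out_eq' i, ← QuotientGroup.out_eq' j, QuotientGroup.eq, mem_subgroupOf]
    beta_reduce at e
    generalize i.out = u, j.out = w at e
    refine a4 _ (u⁻¹ * w).2 fun g hg => ?_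
    have b1 := hσ _ (ZC (a1 _ (RK (inv_mem hg)) u u.2))
    have b2 := hσ _ (ZC (a1 _ (RK (inv_mem hg)) w w.2))
    have b3 : θ (g⁻¹ * u * g⁻¹⁻¹ * (u : H)⁻¹) = θ (g⁻¹ * w * g⁻¹⁻¹ * (w : H)⁻¹) :=
      Units.ext (b1.trans ((congrArg (· • (1 : End k V)) (congrFun e ⟨_, inv_mem hg⟩)).trans b2.symm))
    simp only [map_mul, map_inv, mul_assoc, mul_right_inj, inv_inv] at b3
    rw [coe_mul, coe_inv, map_mul, map_inv]
    calc θ g * ((θ u)⁻¹ * θ w) = (θ u)⁻¹ * (θ u * (θ g * (θ u)⁻¹)) * θ w := by group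
      _ = _ := by rw [b3]; group
  · have b1 := hσ _ (ZC (a1 y (RK y.2) _ i.out.2))
    rw [LinearMap.comp_apply, LinearMap.mulRight_apply, LinearMap.mulLeft_apply, ← map_mul, ← map_mul,
      ← one_mul (ρ (i.out : R)), ← smul_mul_assoc, ← b1, ← map_mul, inv_mul_cancel_right, mul_assoc]

end Cfsg.Agent.E8A
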