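import Cfsg.Agent.E8A.Cop
import Cfsg.Agent.E8A.Alt
import Cfsg.Agent.E8A.Eig
import Cfsg.Agent.E8A.Cnt

set_option autoImplicit false

namespace Cfsg.Agent.E8A

open Module

variable {H : Type*} [Group H] {k V : Type*} [Field k] [AddCommGroup V] [Module k V]

namespace Sub

theorem prod_cube {M : Type*} [Monoid M] (l : List M) (hc : ∀ a ∈ l, ∀ b ∈ l, Commute a b)
    (h3 : ∀ a ∈ l, a ^ 3 = 1) : l.prod ^ 3 = 1 := by
  induction l with
  | nil => simp
  | cons a l ih =>
    rw [List.prod_cons, (Commute.list_prod_right l a fun b hb =>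
      hc a List.mem_cons_self b (List.mem_cons_of_mem _ hb)).mul_pow, h3 a List.mem_cons_self,
      ih (fun x hx y hy => hc x (List.mem_cons_of_mem _ hx) y (List.mem_cons_of_mem _ hy))
        (fun x hx => h3 x (List.mem_cons_of_mem _ hx)), one_mul]

theorem pw_cube {M : Type*} [Monoid M] {c : Fin 6 → M} (h3 : ∀ i, c i ^ 3 = 1)
    (hc : ∀ i j, Commute (c i) (c j)) (x : E6) : pw c x ^ 3 = 1 := by
  refine prod_cube _ (fun a ha b hb => ?_) fun a ha => ?_
  · obtain ⟨i, rfl⟩ := List.mem_ofFn.1 ha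
    obtain ⟨j, rfl⟩ := List.mem_ofFn.1 hb
    exact (hc i j).pow_pow _ _
  · obtain ⟨i, rfl⟩ := List.mem_ofFn.1 ha
    rw [← pow_mul, mul_comm, pow_mul, h3, one_pow]

theorem pw_comm {M : Type*} [Monoid M] {c : Fin 6 → M} (hc : ∀ i j, Commute (c i) (c j)) (i : Fin 6)
    (x : E6) : Commute (c i) (pw c x) :=
  Commute.list_prod_right _ _ fun b hb => by
    obtain ⟨j, rfl⟩ := List.mem_ofFn.1 hb
    exact (hc i j).pow_right _

theorem prod_apply {n : ℕ} (c : Fin n → End k V) (s : Fin n → k) {v : V} (h : ∀ i, c i v = s i • v) :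
    (List.ofFn c).prod v = (∏ i, s i) • v := by
  induction n with
  | zero => simp
  | succ n ih =>
    rw [List.ofFn_succ, List.prod_cons, End.mul_apply, ih _ (fun i => s i.succ) fun i => h i.succ, map_smul, h,
      Fin.prod_univ_succ, smul_smul, mul_comm]

theorem mem_jt {ω : k} {n : ℕ} {c : Fin n → End k V} {a : Fin n → ZMod 3} {v : V} :
    v ∈ jt ω c a ↔ ∀ i, c i v = ω ^ (a i).val • v := by
  simp [jt, Submodule.mem_iInf]

theorem pow_apply' {T : End k V} {s : k} {v : V} (h : T v = s • v) (n : ℕ) : (T ^ n) v = s ^ n • v := by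
  induction n with
  | zero => simp
  | succ n ih => rw [pow_succ, End.mul_apply, h, map_smul, ih, smul_smul, pow_succ']

theorem pw_apply {ω : k} {c : Fin 6 → End k V} {a : E6} {v : V} (h : v ∈ jt ω c a) (x : E6) :
    pw c x v = ω ^ (∑ i, (a i).val * (x i).val) • v := by
  rw [pw, prod_apply _ (fun i => ω ^ ((a i).val * (x i).val)) fun i => by
    rw [pow_apply' (mem_jt.1 h i), pow_mul], Finset.prod_pow_eq_pow_sum]

theorem pow_dot {ω : k} (hω : IsPrimitiveRoot ω 3) (a x : E6) :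
    ω ^ (∑ i, (a i).val * (x i).val) = 1 ↔ a ⬝ᵥ x = 0 := by
  rw [hω.pow_eq_one_iff_dvd, ← ZMod.natCast_eq_zero_iff]
  simp [dotProduct]

theorem eig_filter [FiniteDimensional k V] {ω : k} (hω : IsPrimitiveRoot ω 3)
    {c : Fin 6 → End k V} (h3 : ∀ i, c i ^ 3 = 1) (hc : ∀ i j, Commute (c i) (c j))
    {W : Submodule k V} (hW : ∀ i, ∀ v ∈ W, c i v ∈ W) (p : E6 → Prop) [DecidablePred p]
    (hp : ∀ a, ∀ v ∈ jt ω c a, v ≠ 0 → (v ∈ W ↔ p a)) :
    finrank k W = ∑ a ∈ Finset.univ.filter p, finrank k (jt ω c a) := by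
  rw [eig hω c h3 hc W hW, Finset.sum_filter]
  refine Finset.sum_congr rfl fun a _ => ?_
  split_ifs with h
  · have : jt ω c a ≤ W := fun v hv => by
      by_cases e : v = 0
      · exact e ▸ W.zero_mem
      · exact (hp a v hv e).2 h
    rw [inf_eq_right.2 this]
  · have : W ⊓ jt ω c a = ⊥ :=
      (Submodule.eq_bot_iff _).2 fun v hv => by_contra fun e => h ((hp a v hv.2 e).1 hv.1)
    rw [this, finrank_bot]

theorem quad {ω : k} (hω : IsPrimitiveRoot ω 3) (hk : (3 : k) ≠ 0) (j : ZMod 3) :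
    ω ^ j.val * ω ^ j.val + ω ^ j.val + 1 = 0 ↔ j ≠ 0 := by
  have a1 := hω.geom_sum_eq_zero (by norm_num)
  have a2 := hω.pow_eq_one
  simp only [Finset.sum_range_succ, Finset.sum_range_zero] at a1
  have : j = 0 ∨ j = 1 ∨ j = 2 := by revert j; decide
  rcases this with rfl | rfl | rfl
  · refine iff_of_false (fun e => hk ?_) (by simp)
    rw [ZMod.val_zero] at e
    linear_combination e
  · refine iff_of_true ?_ (by decide)
    rw [show (1 : ZMod 3).val = 1 from rfl]
    linear_combination a1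
  · refine iff_of_true ?_ (by decide)
    rw [show (2 : ZMod 3).val = 2 from rfl]
    linear_combination a1 + ω * a2

theorem fix_le [FiniteDimensional k V] (ρ : Representation k H V) (n g : H) :
    finrank k (End.eigenspace (ρ g) 1) ≤ finrank k (End.eigenspace (ρ (n * g * n⁻¹)) 1) := by
  have h : ∀ v ∈ End.eigenspace (ρ g) 1, ρ n v ∈ End.eigenspace (ρ (n * g * n⁻¹)) 1 := fun v hv => by
    rw [End.mem_eigenspace_iff, one_smul] at hv ⊢
    rw [← End.mul_apply, ← map_mul, inv_mul_cancel_right, map_mul, End.mul_apply, hv]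
  refine LinearMap.finrank_le_finrank_of_injective (f := (ρ n).restrict h) fun v w e => Subtype.ext ?_
  have := congrArg (ρ n⁻¹) (congrArg Subtype.val e)
  simpa [← End.mul_apply, ← map_mul] using this

/-- the subspace on which the `c i`, `i ∈ τ`, are quadratic -/
def Sq (c : Fin 6 → End k V) (τ : Finset (Fin 6)) : Submodule k V :=
  ⨅ i ∈ τ, LinearMap.ker (c i * c i + c i + 1)

theorem mem_Sq {c : Fin 6 → End k V} {τ : Finset (Fin 6)} {v : V} :
    v ∈ Sq c τ ↔ ∀ i ∈ τ, (c i * c i + c i + 1) v = 0 := by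
  simp only [Sq, Submodule.mem_iInf, LinearMap.mem_ker]

theorem Sq_inv {c : Fin 6 → End k V} {τ : Finset (Fin 6)} {T : End k V} (h : ∀ i ∈ τ, Commute (c i) T) :
    ∀ v ∈ Sq c τ, T v ∈ Sq c τ := fun v hv => mem_Sq.2 fun i hi => by
  have : Commute (c i * c i + c i + 1) T :=
    (((h i hi).mul_left (h i hi)).add_left (h i hi)).add_left (Commute.one_left T)
  rw [← End.mul_apply, this.eq, End.mul_apply, mem_Sq.1 hv i hi, map_zero]

end Sub

open Sub in
theorem exists_sub [Finite H] [IsAlgClosed k] (M : Mn H) (h3 : ¬ 3 ∣ Nat.card M.φ.ker) (L : Lf M)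
    (hk : (3 : k) ≠ 0) (ρ : Representation k H V) (hV : finrank k V = 248) (hT : Tr ρ) :
    ∃ S : Submodule k V, (∀ g, ∀ v ∈ S, ρ g v ∈ S) ∧ finrank k S = 128 ∧
      ∀ v ∈ S, ρ (L.c 0) (ρ (L.c 0) v) + ρ (L.c 0) v + v = 0 := by
  classical
  haveI : FiniteDimensional k V := Module.finite_of_finrank_pos (by omega)
  obtain ⟨ω, hω⟩ : ∃ ω : k, IsPrimitiveRoot ω 3 := by
    haveI : NeZero ((3 : ℕ) : k) := ⟨by exact_mod_cast hk⟩
    exact HasEnoughRootsOfUnity.exists_primitiveRoot k 3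
  obtain ⟨C, hC⟩ : ∃ C : Fin 6 → End k V, C = fun i => ρ (L.c i) := ⟨_, rfl⟩
  have C3 : ∀ i, C i ^ 3 = 1 := fun i => by rw [hC, ← map_pow, L.cube, map_one]
  have Cc : ∀ i j, Commute (C i) (C j) := fun i j => hC ▸ (L.comm i j).map ρ
  have mp : ∀ x, M.φ (pw L.c x) = pw cyc x := fun x => by rw [map_pw]; simp only [L.map]
  have a0 : ∑ a, finrank k (jt ω C a) = 248 := by
    rw [← hV, ← finrank_top, eig hω C C3 Cc ⊤ fun _ _ _ => trivial]
    exact Finset.sum_congr rfl fun a _ => by rw [top_inf_eq]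
  have a1 : ∀ x : E6, ∑ a ∈ Finset.univ.filter (fun a : E6 => a ⬝ᵥ x = 0), finrank k (jt ω C a) =
      finrank k (End.eigenspace (ρ (pw L.c x)) 1) := fun x => by
    rw [map_pw, ← hC]
    refine (eig_filter hω C3 Cc (fun i v hv => ?_) _ fun a v hv v0 => ?_).symm
    · rw [End.mem_eigenspace_iff, one_smul] at hv ⊢
      rw [← End.mul_apply, ← (pw_comm Cc i x).eq, End.mul_apply, hv]
    · rw [End.mem_eigenspace_iff, pw_apply hv, (smul_left_injective k v0).eq_iff, pow_dot hω]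
  have a2 : ∀ x y : E6, wt x = wt y → finrank k (End.eigenspace (ρ (pw L.c x)) 1) ≤
      finrank k (End.eigenspace (ρ (pw L.c y)) 1) := fun x y e => by
    obtain ⟨g, hg⟩ := isConj_iff.1 (pw_conj e)
    obtain ⟨n, -, hn⟩ := cop M.φ M.surj h3 (ι := Unit) (fun _ => pw L.c x) (fun _ => pw L.c y)
      (fun _ => pw_cube L.cube L.comm x) (fun _ _ => Commute.refl _) (fun _ => pw_cube L.cube L.comm y)
      (fun _ _ => Commute.refl _) g fun _ => by rw [mp, mp, hg]
    rw [← hn ()]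
    exact fix_le ρ n _
  obtain ⟨b1, b2⟩ := cnt (fun a => finrank k (jt ω C a))
    (fun w => if h : ∃ x : E6, wt x = w then finrank k (End.eigenspace (ρ (pw L.c h.choose)) 1) else 0) a0
    fun x hx => by
      have h : ∃ y : E6, wt y = wt x := ⟨x, rfl⟩
      rw [dif_pos h, le_antisymm (a2 _ _ h.choose_spec) (a2 _ _ h.choose_spec.symm)]
      exact ⟨hT _ (pw_cube L.cube L.comm x) fun e => pw_ne hx (by rw [← mp, e, map_one]), a1 x⟩
  have a3 : ∀ τ : Finset (Fin 6), 3 ≤ τ.card → finrank k (Sq C τ) = 128 := fun τ hτ => by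
    rw [eig_filter hω C3 Cc (fun i => Sq_inv fun j _ => Cc j i) (fun a => ∀ i ∈ τ, a i ≠ 0)
      fun a v hv v0 => ?_, ← b2]
    · refine (Finset.sum_subset (fun a ha => ?_) fun a ha hn => b1 a ?_ ?_).symm
      · have := (Finset.card_eq_iff_eq_univ _).1 (Finset.mem_filter.1 ha).2
        refine Finset.mem_filter.2 ⟨Finset.mem_univ _, fun i _ => ?_⟩
        have c1 := Finset.mem_univ i
        rw [← this] at c1
        exact (Finset.mem_filter.1 c1).2
      · exact hτ.trans (Finset.card_le_card fun i hi =>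
          Finset.mem_filter.2 ⟨Finset.mem_univ _, (Finset.mem_filter.1 ha).2 i hi⟩)
      · have c1 : wt a ≤ 6 := Finset.card_le_univ _
        have c2 : wt a ≠ 6 := fun e => hn (Finset.mem_filter.2 ⟨Finset.mem_univ _, e⟩)
        omega
    · refine mem_Sq.trans (forall₂_congr fun i _ => ?_)
      rw [← quad hω hk, LinearMap.add_apply, LinearMap.add_apply, End.mul_apply, mem_jt.1 hv i, map_smul,
        mem_jt.1 hv i, smul_smul, End.one_apply, ← smul_eq_zero_iff_left v0, add_smul, add_smul, one_smul]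
  have a4 : ∀ τ : Finset (Fin 6), τ.card = 3 → Sq C Finset.univ = Sq C τ := fun τ hτ =>
    Submodule.eq_of_le_of_finrank_eq (fun v hv => mem_Sq.2 fun i _ => mem_Sq.1 hv i (Finset.mem_univ _))
      (by rw [a3 τ hτ.ge, a3 _ (by simp)])
  let U : Subgroup H :=
    { carrier := {g | ∀ v, v ∈ Sq C Finset.univ ↔ ρ g v ∈ Sq C Finset.univ}
      one_mem' := fun v => by rw [map_one, End.one_apply]
      mul_mem' := fun {g h} hg hh v => by rw [map_mul, End.mul_apply, ← hg, ← hh]
      inv_mem' := fun {g} hg v => by rw [hg (ρ g⁻¹ v), ← End.mul_apply, ← map_mul, mul_inv_cancel, map_one,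
        End.one_apply] }
  have a5 : U = ⊤ := M.min U (gen _ fun τ hτ y hy => by
    obtain ⟨n, rfl, hn⟩ := cop M.φ M.surj h3 (ι := τ) (fun i => L.c i) (fun i => L.c i)
      (fun i => L.cube i) (fun i j => L.comm i j) (fun i => L.cube i) (fun i j => L.comm i j) y
      fun i => by rw [L.map, (hy i i.2).eq, mul_inv_cancel_right]
    have c1 : ∀ i ∈ τ, Commute (L.c i) n := fun i hi => (mul_inv_eq_iff_eq_mul.1 (hn ⟨i, hi⟩)).symm
    refine ⟨n, fun v => ?_, rfl⟩
    rw [a4 τ hτ]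
    refine ⟨Sq_inv (fun i hi => hC ▸ (c1 i hi).map ρ) v, fun hv => ?_⟩
    have := Sq_inv (T := ρ n⁻¹) (fun i hi => hC ▸ (c1 i hi).inv_right.map ρ) _ hv
    rwa [← End.mul_apply, ← map_mul, inv_mul_cancel, map_one, End.one_apply] at this)
  refine ⟨Sq C Finset.univ, fun g v hv => ((a5 ▸ Subgroup.mem_top g : g ∈ U) v).1 hv, a3 _ (by simp),
    fun v hv => ?_⟩
  have := mem_Sq.1 hv 0 (Finset.mem_univ _)
  rw [hC] at this
  exact this

end Cfsg.Agent.E8A
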