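import Cfsg.Agent.E8A.Min
import Cfsg.Agent.E8A.K3
import Cfsg.Agent.E8A.Cop
import Cfsg.Agent.E8A.Sub
import Cfsg.Agent.E8A.Scal
import Cfsg.Agent.E8A.Rel
import Cfsg.Agent.E8A.ClifO
import Cfsg.Agent.E8A.ClifE

set_option autoImplicit false

namespace Cfsg.Agent.E8A

open Module

variable {H : Type*} [Group H] {k V : Type*} [Field k] [AddCommGroup V] [Module k V]

theorem SR.of_inj {G : Type*} [Group G] (h : SR G) (f : H →* G) (hf : Function.Injective f) :
    SR H := fun R R₀ h1 h2 h3 h4 => by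
  rw [← Subgroup.relIndex_map_map_of_injective R₀ R hf]
  refine h _ _ (h1.map f) (Subgroup.map_mono h2) ?_ ?_
  · rintro _ ⟨x, hx, rfl⟩ _ ⟨y, hy, rfl⟩
    exact ⟨_, h3 x hx y hy, by simp⟩
  · rintro _ ⟨x, hx, rfl⟩
    exact ⟨_, h4 x hx, by simp⟩

theorem Tr.of_inj {G : Type*} [Group G] {ρ : Representation k G V} (h : Tr ρ) (f : H →* G)
    (hf : Function.Injective f) : Tr (ρ.comp f : Representation k H V) := fun g h1 h2 =>
  h (f g) (by rw [← map_pow, h1, map_one]) (by rwa [Ne, map_eq_one_iff f hf])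

theorem exists_irr [FiniteDimensional k V] (ρ : Representation k H V) (S : Submodule k V)
    (hS : ∀ g, ∀ v ∈ S, ρ g v ∈ S) (h0 : S ≠ ⊥) : ∃ W : Submodule k V, W ≤ S ∧
      ∃ ρ' : Representation k H W, Irr ρ' ∧ ∀ g v, (ρ' g v : V) = ρ g v := by
  obtain ⟨W, ⟨h1, h2, h3⟩, h4⟩ := exists_minimalFor_of_wellFoundedLT
    (fun W : Submodule k V => W ≤ S ∧ W ≠ ⊥ ∧ ∀ g, ∀ v ∈ W, ρ g v ∈ W)
    (fun W => finrank k W) ⟨S, le_rfl, h0, hS⟩
  refine ⟨W, h1, ρ.subrepresentation W fun g v hv => h3 g v hv,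
    ⟨Submodule.nontrivial_iff_ne_bot.2 h2, fun U hU => ?_⟩, fun g v => rfl⟩
  by_cases hb : U = ⊥
  · exact Or.inl hb
  refine Or.inr (Submodule.eq_top_of_finrank_eq (le_antisymm U.finrank_le ?_))
  have h5 : finrank k (U.map W.subtype) = finrank k U := Submodule.finrank_map_subtype_eq W U
  rw [← h5]
  refine h4 ⟨(W.map_subtype_le U).trans h1, fun h => hb ?_, ?_⟩ (h5.trans_le U.finrank_le)
  · exact Submodule.map_injective_of_injective W.subtype_injective (by rw [h, Submodule.map_bot])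
  · rintro g _ ⟨v, hv, rfl⟩
    exact ⟨_, hU g v hv, rfl⟩

theorem no_a18 [Finite H] [IsAlgClosed k] (hk : (3 : k) ≠ 0) (ρ : Representation k H V)
    (hV : finrank k V = 248) (hT : Tr ρ) (hS : SR H) (φ : H →* A18) (hφ : Function.Surjective φ) :
    False := by
  have : FiniteDimensional k V := .of_finrank_pos (by omega)
  obtain ⟨L, ⟨M⟩⟩ := exists_mn φ hφ
  have h3 := not_three_dvd M (hS.of_inj L.subtype L.subtype_injective)
  obtain ⟨c⟩ := exists_lf M h3
  obtain ⟨S, h1, h2, h4⟩ := exists_sub M h3 c hk (ρ.comp L.subtype) hV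
    (hT.of_inj L.subtype L.subtype_injective)
  obtain ⟨W, h5, ρ', h6, h7⟩ := exists_irr (ρ.comp L.subtype : Representation k L V) S h1
    (fun h => by rw [h, finrank_bot] at h2; omega)
  have h8 : finrank k W < 256 := (Submodule.finrank_mono h5).trans_lt (by omega)
  have hq : Qd (ρ' (c.c 0)) := LinearMap.ext fun v => Subtype.ext (by
    have := h4 v (h5 v.2)
    simpa [h7] using this)
  have h9 : M.φ (c.c 0) ≠ 1 := by rw [c.map]; decide
  have := h6.1
  obtain ⟨a, ha, hr⟩ := rel M c ρ' hk hq (scal M ρ' h6 h9 (c.cube 0) hq h8)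
  by_cases h : (2 : k) = 0
  · exact absurd (clifE h a ha hr) (by omega)
  · exact absurd (clifO h hk a ha hr) (by omega)

end Cfsg.Agent.E8A
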