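import Cfsg.Agent.E8A.Defs
import Cfsg.Agent.H13.ChevFus

set_option autoImplicit false

namespace Cfsg.Agent.E8A

open Module

variable {H : Type*} [Group H] {k V : Type*} [Field k] [AddCommGroup V] [Module k V]

namespace P3

def xp : Equiv.Perm (Fin 19) :=
  ⟨fun i => if i.val < 17 then ⟨(i.val + 1) % 17, by omega⟩ else i,
    fun i => if i.val < 17 then ⟨(i.val + 16) % 17, by omega⟩ else i, by decide, by decide⟩

def gp : Equiv.Perm (Fin 19) :=
  ⟨fun i => if h : i.val < 17 then ⟨(3 * i.val) % 17, by omega⟩ else ⟨35 - i.val, by omega⟩,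
    fun i => if h : i.val < 17 then ⟨(6 * i.val) % 17, by omega⟩ else ⟨35 - i.val, by omega⟩, by decide, by decide⟩

def x : alternatingGroup (Fin 19) := ⟨xp, Equiv.Perm.mem_alternatingGroup.2 (by decide +kernel)⟩

def g : alternatingGroup (Fin 19) := ⟨gp, Equiv.Perm.mem_alternatingGroup.2 (by decide +kernel)⟩

theorem x_pow : x ^ 17 = 1 := Subtype.ext (by decide +kernel)

theorem x_ne : x ≠ 1 := fun h => absurd (congrArg Subtype.val h) (by decide +kernel)

theorem gx : g * x * g⁻¹ = x ^ 3 := Subtype.ext (by decide +kernel)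

theorem gz {e : alternatingGroup (Fin 19)} (h : e ∈ Subgroup.zpowers x) : g * e * g⁻¹ = e ^ 3 := by
  obtain ⟨j, rfl⟩ := h
  change g * x ^ j * g⁻¹ = (x ^ j) ^ 3
  rw [← conj_zpow, gx, ← zpow_natCast, ← zpow_natCast, ← zpow_mul, ← zpow_mul, mul_comm]

end P3

open P3 in
theorem no_a19 [Finite H] (φ : H →* alternatingGroup (Fin 19)) (hs : Function.Surjective φ)
    (hc : ∀ P : Subgroup H, IsPGroup 17 P → ∀ x ∈ P, ∀ y ∈ P, x * y = y * x)
    (hn : ∀ g n : H, g ^ 17 = 1 → n * g * n⁻¹ = g ^ 3 → g = 1) : False := by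
  have : Fact (Nat.Prime 17) := ⟨by norm_num⟩
  obtain ⟨Q, hQ, hm, hl⟩ := H13.lift_norm φ ⊤ (H13.isPGroup_zpowers_of_pow x_pow)
    (by rw [Subgroup.map_top_of_surjective φ hs]; exact le_top)
  obtain ⟨g₀, hg₀⟩ := hs g
  obtain ⟨n, -, h1, h2⟩ := hl g₀ trivial fun e he => by rw [hg₀, gz he]; exact pow_mem he 3
  rw [hg₀] at h2
  have key : ∀ (m : ℕ) (s : H), s ^ 17 ^ m = 1 → n * s * n⁻¹ = s ^ 3 → s = 1 := fun m => by
    induction m with
    | zero => exact fun s h _ => by simpa using h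
    | succ m ih =>
      refine fun s h h' => hn s n (ih _ (by rw [← pow_mul, ← pow_succ', h]) ?_) h'
      rw [← conj_pow, h', ← pow_mul, ← pow_mul, mul_comm]
  let θ : Q → Q := fun q => ⟨n * q * n⁻¹, h1 q q.2⟩ * (q ^ 3)⁻¹
  have inj : Function.Injective θ := fun a b e => by
    have e' : n * a * n⁻¹ * ((a : H) ^ 3)⁻¹ = n * b * n⁻¹ * ((b : H) ^ 3)⁻¹ := congrArg Subtype.val e
    have c : Commute (b : H)⁻¹ a := hc Q hQ.isPGroup _ (inv_mem b.2) _ a.2
    obtain ⟨m, hm⟩ := hQ.isPGroup (b⁻¹ * a)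
    have := key m ((b : H)⁻¹ * a) (congrArg Subtype.val hm) (by
      rw [c.mul_pow, inv_pow, ← conj_mul, mul_inv_eq_iff_eq_mul.1 e']
      group)
    exact (Subtype.ext (inv_mul_eq_one.1 this)).symm
  obtain ⟨y, hy, e⟩ := hm.ge (Subgroup.mem_zpowers x)
  obtain ⟨q, hq⟩ := Finite.surjective_of_injective inj ⟨y, hy⟩
  have e' : n * q * n⁻¹ * ((q : H) ^ 3)⁻¹ = y := congrArg Subtype.val hq
  refine x_ne ?_
  rw [← e, ← e', map_mul, map_mul, map_mul, map_inv, map_inv, map_pow, h2, gz (hm.le ⟨_, q.2, rfl⟩),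
    mul_inv_cancel]

end Cfsg.Agent.E8A
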